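import Cfsg.Agent.H2.PushUp
import Cfsg.Agent.H5.ThompsonAux
import Cfsg.Agent.H3.Modular

/-!
The Baumann subgroup and minimal parabolics with quotient `S₃`.
-/

set_option autoImplicit false
set_option linter.unusedSectionVars false

namespace Cfsg.Agent.H2.AM

open Subgroup Cfsg H1
open scoped commutatorElement Pointwise

variable {G : Type*} [Group G]

/-- `Ω₁(Z(Q))` for the prime two. -/
def oz (Q : Subgroup G) : Subgroup G where
  carrier := {x | x ∈ Q ∧ x ∈ centralizer (Q : Set G) ∧ x * x = 1}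
  one_mem' := ⟨one_mem _, one_mem _, mul_one _⟩
  mul_mem' := fun {a b} ha hb => ⟨mul_mem ha.1 hb.1, mul_mem ha.2.1 hb.2.1, by
    rw [mul_assoc, ← mul_assoc b, ← hb.2.1 a ha.1, mul_assoc a, hb.2.2, mul_one, ha.2.2]⟩
  inv_mem' := fun {a} ha => ⟨inv_mem ha.1, inv_mem ha.2.1, by
    rw [← mul_inv_rev, ha.2.2, inv_one]⟩

theorem mem_oz {Q : Subgroup G} {x : G} :
    x ∈ oz Q ↔ x ∈ Q ∧ x ∈ centralizer (Q : Set G) ∧ x * x = 1 := Iff.rfl

theorem oz_le (Q : Subgroup G) : oz Q ≤ Q := fun _ h => h.1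

theorem oz_le_cent (Q : Subgroup G) : oz Q ≤ centralizer (Q : Set G) := fun _ h => h.2.1

theorem le_cent_oz (Q : Subgroup G) : Q ≤ centralizer (oz Q : Set G) :=
  le_centralizer_iff.1 (oz_le_cent Q)

theorem oz_elemAb (Q : Subgroup G) : IsElementaryAbelian 2 (oz Q) :=
  H5.elemAb_iff.2 ⟨fun a ha _ hb => hb.2.1 a ha.1, fun a ha => (pow_two a).trans ha.2.2⟩

theorem oz_le_oz {Q B : Subgroup G} (h : Q ≤ B) (h' : oz B ≤ Q) : oz B ≤ oz Q :=
  fun _ hx => ⟨h' hx, centralizer_le h hx.2.1, hx.2.2⟩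

section map

variable {G' : Type*} [Group G'] {f : G →* G'} (hf : Function.Injective f)
include hf

theorem mem_cent_map {Q : Subgroup G} {x : G} :
    f x ∈ centralizer (Q.map f : Set G') ↔ x ∈ centralizer (Q : Set G) :=
  ⟨fun h y hy => hf (by rw [map_mul, map_mul]; exact h _ (mem_map_of_mem f hy)), fun h => by
    rintro _ ⟨y, hy, rfl⟩
    rw [← map_mul, ← map_mul, h y hy]⟩

theorem map_le_cent_iff {P Q : Subgroup G} :
    P.map f ≤ centralizer (Q.map f : Set G') ↔ P ≤ centralizer (Q : Set G) := by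
  rw [map_le_iff_le_comap]
  exact forall₂_congr fun x _ => mem_cent_map hf

theorem map_inf_cent (P Q : Subgroup G) : (P ⊓ centralizer (Q : Set G)).map f =
    P.map f ⊓ centralizer (Q.map f : Set G') := by
  refine le_antisymm (le_inf (map_mono inf_le_left) ((map_le_cent_iff hf).2 inf_le_right)) ?_
  rintro _ ⟨⟨x, hx, rfl⟩, h⟩
  exact mem_map_of_mem f (mem_inf.2 ⟨hx, (mem_cent_map hf).1 h⟩)

theorem map_le_norm_iff {P Q : Subgroup G} :
    P.map f ≤ normalizer (Q.map f : Set G') ↔ P ≤ normalizer (Q : Set G) := by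
  rw [map_le_iff_le_comap, comap_normalizer_eq_of_le_range (map_le_range f Q),
    comap_map_eq_self_of_injective hf]

theorem oz_map (Q : Subgroup G) : oz (Q.map f) = (oz Q).map f := by
  ext y
  constructor
  · rintro ⟨⟨x, hx, rfl⟩, h1, h2⟩
    exact ⟨x, ⟨hx, (mem_cent_map hf).1 h1, hf (by rw [map_mul, h2, map_one])⟩, rfl⟩
  · rintro ⟨x, hx, rfl⟩
    exact ⟨mem_map_of_mem f hx.1, (mem_cent_map hf).2 hx.2.1, by rw [← map_mul, hx.2.2, map_one]⟩

theorem isPGroup_map_iff {p : ℕ} {P : Subgroup G} : IsPGroup p (P.map f) ↔ IsPGroup p P :=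
  ⟨fun h => comap_map_eq_self_of_injective hf P ▸ h.comap_of_injective f hf, fun h => h.map f⟩

theorem pCoreOf_map [Finite G] [Finite G'] (p : ℕ) (P : Subgroup G) :
    pCoreOf p (P.map f) = (pCoreOf p P).map f := by
  refine le_antisymm ?_ (((snIn_pCoreOf p P).map f).le_pCoreOf ((isPGroup_pCoreOf p P).map f))
  rw [← map_comap_eq_self ((pCoreOf_le p _).trans (map_le_range f P))]
  have := (snIn_pCoreOf p (P.map f)).comap f
  rw [comap_map_eq_self_of_injective hf] at this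
  exact map_mono (this.le_pCoreOf ((isPGroup_pCoreOf p _).comap_of_injective f hf))

theorem nclIn_map (P A : Subgroup G) : nclIn (P.map f) (A.map f) = (nclIn P A).map f := by
  refine le_antisymm (nclIn_le_iff.2 ?_) (map_le_iff_le_comap.2 (nclIn_le_iff.2 fun g hg => ?_))
  · rintro _ ⟨g, hg, rfl⟩
    rw [← map_conj_smul]
    exact map_mono (conj_le_nclIn A hg)
  · rw [← map_le_iff_le_comap, map_conj_smul]
    exact conj_le_nclIn _ (mem_map_of_mem f hg)

end map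

theorem conj_oz (g : G) (Q : Subgroup G) : MulAut.conj g • oz Q = oz (MulAut.conj g • Q) :=
  (oz_map (f := (MulAut.conj g).toMonoidHom) (MulAut.conj g).injective Q).symm

theorem norm_le_norm_oz (Q : Subgroup G) : normalizer (Q : Set G) ≤ normalizer (oz Q : Set G) :=
  fun g hg => by rw [mem_normalizer_iff_conj_smul, conj_oz, mem_normalizer_iff_conj_smul.1 hg]

/-- The Baumann subgroup. -/
def bau (Y : Subgroup G) : Subgroup G :=
  Y ⊓ centralizer (oz (thompsonSubgroupOf 2 Y) : Set G)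

theorem bau_le (Y : Subgroup G) : bau Y ≤ Y := inf_le_left

theorem J_le_bau (Y : Subgroup G) : thompsonSubgroupOf 2 Y ≤ bau Y :=
  le_inf (H5.thompsonSubgroupOf_le Y) (le_cent_oz _)

theorem bau_map {G' : Type*} [Group G'] {f : G →* G'} (hf : Function.Injective f)
    (Y : Subgroup G) : bau (Y.map f) = (bau Y).map f := by
  rw [bau, bau, map_inf_cent hf, H5.thompsonSubgroupOf_map_of_injective f hf, oz_map hf]

theorem conj_bau (g : G) (Q : Subgroup G) : MulAut.conj g • bau Q = bau (MulAut.conj g • Q) :=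
  (bau_map (f := (MulAut.conj g).toMonoidHom) (MulAut.conj g).injective Q).symm

theorem norm_le_norm_bau (Q : Subgroup G) : normalizer (Q : Set G) ≤ normalizer (bau Q : Set G) :=
  fun g hg => by rw [mem_normalizer_iff_conj_smul, conj_bau, mem_normalizer_iff_conj_smul.1 hg]

theorem J_le_iff {Y K : Subgroup G} :
    thompsonSubgroupOf 2 Y ≤ K ↔ ∀ A ∈ H5.elemMax 2 Y, A ≤ K := by
  rw [H5.thompsonSubgroupOf_eq_sSup, sSup_le_iff]

theorem mul_mem_iff_two {Q B : Subgroup G} (h : Q.relIndex B = 2) {a b : G} (ha : a ∈ B)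
    (hb : b ∈ B) : a * b ∈ Q ↔ (a ∈ Q ↔ b ∈ Q) :=
  mul_mem_iff_of_index_two h (a := ⟨a, ha⟩) (b := ⟨b, hb⟩)

theorem mul_mem_two {Q B : Subgroup G} (h : Q.relIndex B = 2) {a b : G} (ha : a ∈ B)
    (hb : b ∈ B) (ha' : a ∉ Q) (hb' : b ∉ Q) : a * b ∈ Q :=
  (mul_mem_iff_two h ha hb).2 (iff_of_false ha' hb')

variable [Finite G]

theorem oz_ne_bot {Q : Subgroup G} (h : IsPGroup 2 Q) (h0 : Q ≠ ⊥) : oz Q ≠ ⊥ := by
  haveI := h.isNilpotent
  obtain ⟨k, hk⟩ := IsPGroup.iff_card.1 (h.to_le (H5.zOf_le Q))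
  obtain ⟨x, hx⟩ := exists_prime_orderOf_dvd_card' (G := H5.zOf Q) 2 (by
    rw [hk]
    exact dvd_pow_self 2 fun e => H5.zOf_ne_bot h0 (card_eq_one.1 (by rw [hk, e, pow_zero])))
  refine ne_bot_iff_exists_ne_one.2 ⟨⟨x, x.2.1, x.2.2, ?_⟩, fun e => ?_⟩
  · rw [← pow_two, ← hx, ← coe_pow, pow_orderOf_eq_one, coe_one]
  · rw [show x = 1 from Subtype.ext (congrArg Subtype.val e :), orderOf_one] at hx
    exact absurd hx (by norm_num)

theorem relIndex_le_of_elemMax {Y A D W : Subgroup G} (hA : A ∈ H5.elemMax 2 Y) (hD : D ≤ A)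
    (hW : W ≤ Y) (hWe : IsElementaryAbelian 2 W) (hc : D ≤ centralizer (W : Set G)) :
    D.relIndex W ≤ D.relIndex A := by
  have h1 := hA.2.2 _ (sup_le (hD.trans hA.1) hW) (elemAb_sup_of_le_centralizer
    (H5.elemAb_mono hD hA.2.1) hWe hc)
  rw [card_sup_eq_mul_relIndex (le_normalizer_of_le_centralizer hc), ← card_mul_relIndex hD] at h1
  exact Nat.le_of_mul_le_mul_left h1 Nat.card_pos

theorem sup_mem_elemMax {Y A D W : Subgroup G} (hA : A ∈ H5.elemMax 2 Y) (hD : D ≤ A)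
    (hW : W ≤ Y) (hWe : IsElementaryAbelian 2 W) (hc : D ≤ centralizer (W : Set G))
    (hi : D.relIndex A ≤ 2) (hn : ¬ W ≤ D) : D ⊔ W ∈ H5.elemMax 2 Y := by
  refine ⟨sup_le (hD.trans hA.1) hW, elemAb_sup_of_le_centralizer (H5.elemAb_mono hD hA.2.1) hWe hc,
    fun E h1 h2 => (hA.2.2 E h1 h2).trans ?_⟩
  rw [card_sup_eq_mul_relIndex (le_normalizer_of_le_centralizer hc), ← card_mul_relIndex hD]
  have h3 := relIndex_pos D W
  have h4 : D.relIndex W ≠ 1 := fun e => hn (relIndex_eq_one.1 e)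
  exact Nat.mul_le_mul_left _ (by omega)

theorem mem_of_elemMax {Y A : Subgroup G} (hA : A ∈ H5.elemMax 2 Y) {x : G} (hx : x ∈ Y)
    (hc : x ∈ centralizer (A : Set G)) (h2 : x * x = 1) : x ∈ A := by
  have := relIndex_le_of_elemMax hA le_rfl (zpowers_le.2 hx)
    (H3.isElementaryAbelian_zpowers ((pow_two x).trans h2))
    (le_centralizer_iff.1 (zpowers_le.2 hc))
  have h3 := relIndex_pos A (zpowers x)
  rw [relIndex_self] at this
  exact relIndex_eq_one.1 (by omega) (mem_zpowers x)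

theorem mem_oz_J {Y : Subgroup G} {x : G} (hx : x ∈ Y)
    (hc : x ∈ centralizer (thompsonSubgroupOf 2 Y : Set G)) (h2 : x * x = 1) :
    x ∈ oz (thompsonSubgroupOf 2 Y) := by
  obtain ⟨A, hA⟩ := H5.exists_mem_elemMax 2 Y
  have := H5.le_thompsonSubgroupOf hA
  exact ⟨this (mem_of_elemMax hA hx (centralizer_le this hc) h2), hc, h2⟩

theorem oz_le_oz_J (Y : Subgroup G) : oz Y ≤ oz (thompsonSubgroupOf 2 Y) := fun _ hx =>
  mem_oz_J hx.1 (centralizer_le (H5.thompsonSubgroupOf_le Y) hx.2.1) hx.2.2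

theorem oz_bau (Y : Subgroup G) : oz (bau Y) = oz (thompsonSubgroupOf 2 Y) :=
  le_antisymm (fun _ hx => mem_oz_J (bau_le Y hx.1) (centralizer_le (J_le_bau Y) hx.2.1) hx.2.2)
    fun _ hx => ⟨J_le_bau Y hx.1, le_centralizer_iff.1 inf_le_right hx, hx.2.2⟩

theorem elemMax_of_le {Y Q A : Subgroup G} (hA : A ∈ H5.elemMax 2 Y) (hQ : Q ≤ Y) (hAQ : A ≤ Q)
    {D : Subgroup G} (hD : D ∈ H5.elemMax 2 Q) : D ∈ H5.elemMax 2 Y :=
  ⟨hD.1.trans hQ, hD.2.1, fun E h1 h2 => (hA.2.2 E h1 h2).trans (hD.2.2 A hAQ hA.2.1)⟩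

theorem elemMax_bau {Y A : Subgroup G} : A ∈ H5.elemMax 2 (bau Y) ↔ A ∈ H5.elemMax 2 Y := by
  obtain ⟨D, hD⟩ := H5.exists_mem_elemMax 2 Y
  exact ⟨elemMax_of_le hD (bau_le Y) ((H5.le_thompsonSubgroupOf hD).trans (J_le_bau Y)),
    fun h => H5.mem_elemMax_of_le (bau_le Y) h ((H5.le_thompsonSubgroupOf h).trans (J_le_bau Y))⟩

theorem bau_eq_of_le {Y Z : Subgroup G} (h1 : bau Y ≤ Z) (h2 : Z ≤ Y) : bau Z = bau Y := by
  rw [bau, H5.thompsonSubgroupOf_eq_of_le h2 ((J_le_bau Y).trans h1)]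
  exact le_antisymm (inf_le_inf_right _ h2) (le_inf h1 inf_le_right)

theorem mem_three {T P : Subgroup G} (h : T.relIndex P = 3) {a b : G} (ha : a ∈ P) (hb : b ∈ P)
    (ha' : a ∉ T) (hb' : b ∉ T) (hab : a⁻¹ * b ∉ T) {g : G} (hg : g ∈ P) :
    g ∈ T ∨ a⁻¹ * g ∈ T ∨ b⁻¹ * g ∈ T := by
  classical
  by_contra hc
  push Not at hc
  have e : ∀ x y : P, ((x : P ⧸ T.subgroupOf P) = y) ↔ (x : G)⁻¹ * y ∈ T := fun x y =>
    QuotientGroup.eq
  have h1 := Nat.card_le_card_of_injective (β := P ⧸ T.subgroupOf P)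
    (![((1 : P) : P ⧸ T.subgroupOf P), (⟨a, ha⟩ : P), (⟨b, hb⟩ : P), (⟨g, hg⟩ : P)]) (by
      have i1 : a⁻¹ ∉ T := fun h => ha' (inv_mem_iff.1 h)
      have i2 : b⁻¹ ∉ T := fun h => hb' (inv_mem_iff.1 h)
      have i3 : g⁻¹ ∉ T := fun h => hc.1 (inv_mem_iff.1 h)
      have i4 : b⁻¹ * a ∉ T := fun h => hab (by simpa using inv_mem h)
      have i5 : g⁻¹ * a ∉ T := fun h => hc.2.1 (by simpa using inv_mem h)
      have i6 : g⁻¹ * b ∉ T := fun h => hc.2.2 (by simpa using inv_mem h)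
      intro i j hij
      fin_cases i <;> fin_cases j <;> simp_all)
  change _ ≤ T.relIndex P at h1
  rw [h, Nat.card_fin] at h1
  omega

/-- `P` is a minimal parabolic over `B` with `P / O₂(P) ≅ S₃`. -/
structure Par (B P : Subgroup G) : Prop where
  pg : IsPGroup 2 B
  le : B ≤ P
  i3 : B.relIndex P = 3
  i2 : (pCoreOf 2 P).relIndex B = 2
  nB : ¬ P ≤ normalizer (B : Set G)
  zQ : oz B ≤ pCoreOf 2 P
  nz : ¬ P ≤ centralizer (oz B : Set G)
  off : ∃ A ∈ H5.elemMax 2 B, ¬ A ≤ pCoreOf 2 P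

theorem par_map_iff {G' : Type*} [Group G'] [Finite G'] {f : G →* G'} (hf : Function.Injective f)
    {B P : Subgroup G} : Par (B.map f) (P.map f) ↔ Par B P := by
  have hk : ∀ X : Subgroup G, f.ker ⊓ X = ⊥ := fun X => by
    rw [(MonoidHom.ker_eq_bot_iff f).2 hf, bot_inf_eq]
  constructor
  · rintro ⟨h1, h2, h3, h4, h5, h6, h7, A, hA, h8⟩
    rw [pCoreOf_map hf] at h4 h6 h8
    rw [oz_map hf] at h6 h7
    rw [relIndex_map_map_of_injective _ _ hf] at h3 h4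
    refine ⟨(isPGroup_map_iff hf).1 h1, (map_le_map_iff_of_injective hf).1 h2, h3, h4,
      fun e => h5 ((map_le_norm_iff hf).2 e), (map_le_map_iff_of_injective hf).1 h6,
      fun e => h7 ((map_le_cent_iff hf).2 e), _, H5.comap_mem_elemMax f (hk B) hA, fun e => h8 ?_⟩
    rw [← H5.map_comap_inf_eq f hA.1]
    exact map_mono e
  · rintro ⟨h1, h2, h3, h4, h5, h6, h7, A, hA, h8⟩
    refine ⟨h1.map f, map_mono h2, by rwa [relIndex_map_map_of_injective _ _ hf], ?_,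
      fun e => h5 ((map_le_norm_iff hf).1 e), ?_, ?_, _, H5.map_mem_elemMax f (hk B) hA, ?_⟩
    · rwa [pCoreOf_map hf, relIndex_map_map_of_injective _ _ hf]
    · rw [pCoreOf_map hf, oz_map hf]; exact map_mono h6
    · rwa [oz_map hf, map_le_cent_iff hf]
    · rwa [pCoreOf_map hf, map_le_map_iff_of_injective hf]

namespace Par

variable {B P : Subgroup G} (h : Par B P)
include h

theorem conj (g : G) : Par (MulAut.conj g • B) (MulAut.conj g • P) :=
  (par_map_iff (f := (MulAut.conj g).toMonoidHom) (MulAut.conj g).injective).2 h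

theorem conj' {g : G} (hg : g ∈ P) : Par (MulAut.conj g • B) P := by
  have := h.conj g
  rwa [mem_normalizer_iff_conj_smul.1 (le_normalizer hg)] at this

theorem Q_le : pCoreOf 2 P ≤ B := pCoreOf_le_of_sylow h.le h.pg (by rw [h.i3]; norm_num)

theorem gen {X K : Subgroup G} (hX : X ≤ P) (hn : ¬ X ≤ B) (h1 : B ≤ K) (h2 : X ≤ K) : P ≤ K := by
  by_contra hc
  exact hn (le_trans (le_inf h2 hX) (eq_of_relIndex_prime Nat.prime_three (le_inf h1 h.le)
    inf_le_right h.i3 fun e => hc (e.trans inf_le_left)).le)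

theorem mem_of_norm {g : G} (hg : g ∈ P) (hn : g ∈ normalizer (B : Set G)) : g ∈ B := by
  by_contra hc
  exact h.nB (h.gen (zpowers_le.2 hg) (fun e => hc (e (mem_zpowers g))) le_normalizer
    (zpowers_le.2 hn))

theorem inf_conj {g : G} (hg : g ∈ P) (hn : g ∉ B) : B ⊓ MulAut.conj g • B = pCoreOf 2 P :=
  eq_of_relIndex_prime Nat.prime_two (le_inf h.Q_le (h.conj' hg).Q_le) inf_le_left h.i2 fun e =>
    hn (h.mem_of_norm hg (mem_normalizer_iff_conj_smul.2 (eq_of_le_of_card_le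
      (e.trans inf_le_right) (card_conj_smul B g).le).symm))

theorem exists_notMem : ∃ g ∈ P, g ∉ B := SetLike.not_le_iff_exists.1 fun e =>
  h.nB (e.trans le_normalizer)

theorem not_le_Q : ¬ B ≤ pCoreOf 2 P := fun e => by
  have := h.i2
  rw [relIndex_eq_one.2 e] at this
  exact absurd this (by norm_num)

theorem oz_le_Z : oz B ≤ oz (pCoreOf 2 P) := oz_le_oz h.Q_le h.zQ

theorem norm_Z : P ≤ normalizer (oz (pCoreOf 2 P) : Set G) :=
  (le_normalizer_pCoreOf 2 P).trans (norm_le_norm_oz _)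

theorem mem_Q {x : G} (hx : x ∈ B) (hc : x ∈ centralizer (oz (pCoreOf 2 P) : Set G)) :
    x ∈ pCoreOf 2 P := by
  by_contra hn
  have h1 : B ≤ centralizer (oz (pCoreOf 2 P) : Set G) :=
    (sup_zpowers_eq_of_relIndex_prime Nat.prime_two h.Q_le h.i2 hx hn).ge.trans
      (sup_le (le_cent_oz _) (zpowers_le.2 hc))
  obtain ⟨g, hg, hg'⟩ := h.exists_notMem
  refine h.nz ((h.gen (h.conj' hg).le (fun e => h.not_le_Q ?_) h1 ?_).trans
    (centralizer_le h.oz_le_Z))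
  · rw [← h.inf_conj hg hg']
    exact le_inf le_rfl (eq_of_le_of_card_le e (card_conj_smul B g).ge).ge
  · rw [← mem_normalizer_iff_conj_smul.1 (h.norm_Z hg), centralizer_conj_smul]
    exact conj_smul_mono g h1

theorem iz : (oz B).relIndex (oz (pCoreOf 2 P)) = 2 := by
  obtain ⟨A, hA, hn⟩ := h.off
  have h1 := relIndex_le_of_elemMax hA (inf_le_left : A ⊓ pCoreOf 2 P ≤ A)
    ((oz_le _).trans h.Q_le) (oz_elemAb _) (inf_le_right.trans (le_cent_oz _))
  rw [inf_relIndex_left] at h1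
  have h2 := relIndex_le_of_le_right hA.1 (relIndex_pos (pCoreOf 2 P) B).ne'
  obtain ⟨a, ha, ha'⟩ := SetLike.not_le_iff_exists.1 hn
  have h3 := relIndex_le_of_inf_le (A := A ⊓ pCoreOf 2 P) (B := oz B) (C := oz (pCoreOf 2 P))
    fun x hx => ⟨h.Q_le hx.1.2, le_centralizer_iff.1 ((sup_zpowers_eq_of_relIndex_prime
      Nat.prime_two h.Q_le h.i2 (hA.1 ha) ha').ge.trans (sup_le (le_centralizer_iff.1
      (zpowers_le.2 hx.2.2.1)) (le_centralizer_iff.1 (zpowers_le.2 (centralizer_le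
      (zpowers_le.2 ha) (le_centralizer_of_comm hA.2.1.1 hx.1.1)))))) (mem_zpowers x), hx.2.2.2⟩
  have h4 := relIndex_pos (oz B) (oz (pCoreOf 2 P))
  have h5 : (oz B).relIndex (oz (pCoreOf 2 P)) ≠ 1 := fun e => h.not_le_Q fun x hx =>
    h.mem_Q hx (centralizer_le (relIndex_eq_one.1 e) (le_cent_oz B hx))
  have := h.i2
  omega

theorem comm_eq {z t : G} (hz : z ∈ oz (pCoreOf 2 P)) (ht : t ∈ B) (hne : ⁅z, t⁆ ≠ 1) :
    ⁅z, t⁆ ∈ oz B ∧ ∀ z' ∈ oz (pCoreOf 2 P), ∀ t' ∈ B, ⁅z', t'⁆ = 1 ∨ ⁅z', t'⁆ = ⁅z, t⁆ := by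
  have hz' : z ∉ oz B := fun e => hne (commutatorElement_eq_one_iff_mul_comm.2 (e.2.1 t ht).symm)
  have ht' : t ∉ pCoreOf 2 P := fun e =>
    hne (commutatorElement_eq_one_iff_mul_comm.2 (hz.2.1 t e).symm)
  have hm : t * z⁻¹ * t⁻¹ ∈ oz (pCoreOf 2 P) :=
    conj_mem_of_le_normalizer h.norm_Z (h.le ht) (inv_mem hz)
  refine ⟨?_, fun z' h1 t' h2 => ?_⟩
  · rw [commutatorElement_def, mul_assoc, mul_assoc, ← mul_assoc t]
    refine mul_mem_two h.iz hz hm hz' fun e => hz' (inv_mem_iff.1 ?_)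
    simpa [mul_assoc] using conj_mem_of_le_normalizer' (le_normalizer.trans (norm_le_norm_oz B)) ht e
  by_cases e1 : z' ∈ oz B
  · exact Or.inl (commutatorElement_eq_one_iff_mul_comm.2 (e1.2.1 t' h2).symm)
  by_cases e2 : t' ∈ pCoreOf 2 P
  · exact Or.inl (commutatorElement_eq_one_iff_mul_comm.2 (h1.2.1 t' e2).symm)
  have c1 := mul_mem_two h.iz (inv_mem hz) h1 (fun e => hz' (inv_mem_iff.1 e)) e1
  have c2 := mul_mem_two h.i2 (inv_mem ht) h2 (fun e => ht' (inv_mem_iff.1 e)) e2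
  obtain ⟨e, he⟩ : ∃ e, e = z⁻¹ * z' := ⟨_, rfl⟩
  obtain ⟨q, hq⟩ : ∃ q, q = t⁻¹ * t' := ⟨_, rfl⟩
  rw [← he] at c1
  rw [← hq] at c2
  obtain rfl : z' = z * e := by rw [he]; group
  obtain rfl : t' = t * q := by rw [hq]; group
  have d1 := c1.2.1 _ h2
  have d2 := hz.2.1 q c2
  refine Or.inr ?_
  calc _ = z * (e * (t * q)) * e⁻¹ * z⁻¹ * (t * q)⁻¹ := by rw [commutatorElement_def]; group
    _ = z * t * (q * z⁻¹) * q⁻¹ * t⁻¹ := by rw [← d1]; group
    _ = _ := by rw [(inv_mem hz).2.1 q c2, commutatorElement_def]; group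

end Par

end Cfsg.Agent.H2.AM
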