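import Cfsg.Agent.H2.Amal9

/-!
The main theorem on `ZN`-groups of characteristic two type.
-/

set_option autoImplicit false
set_option linter.unusedSectionVars false

namespace Cfsg.Agent.H2.AM

open Subgroup Cfsg H1
open scoped commutatorElement Pointwise

universe u

variable {G : Type u} [Group G] [Finite G]

namespace Cfg

variable {B α β : Subgroup G} {z c g : G} (h : Cfg B α β z c g)
include h

theorem c_notMem (c1 : c ≠ 1) : c ∉ pResidual 2 G := by
  obtain ⟨S, hBS, -, hS, hi⟩ := exists_sylow_of_le (le_top : B ≤ ⊤) h.top.pg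
  refine notMem_pResidual hS (by rwa [← relIndex_top_right]) h.top.pg h.cE.1 h.cE.2.2 h.cE.2.1
    (hBS h.cE.1) (fun e => h.notMem_comm c1 hS hBS (map_subtype_commutator S ▸
      mem_map_of_mem S.subtype e)) fun x hx hc => ?_
  have h1 := h.conj_c c1 (h.weak c1 hS hBS (y := x⁻¹) (le_trans (fun b hb => ?_)
    (le_inf le_rfl (h.le_norm c1 hS hBS))))
  · rw [inv_inv] at h1
    rcases h1 with e | e
    · simp only [e]
    · obtain ⟨u, hu, v, hv, d⟩ := h.g1.ex
      rw [show (⟨_, hc⟩ : S) = ⟨c, hBS h.cE.1⟩ * ⁅(⟨u, hBS (h.bm.Z_le hu)⟩ : S), ⟨v, hBS hv⟩⁆ from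
        Subtype.ext (e.trans (d ▸ rfl)), map_mul, map_commutatorElement,
        commutatorElement_eq_one_iff_mul_comm.2 (mul_comm _ _), mul_one]
  · simpa [mul_assoc] using hx _ (mem_conj_smul.1 hb)

theorem selfCent : ∃ t u : pResidual 2 G, P4.SelfCent t u := by
  have hg : g ∈ pResidual 2 G := H8.mem_pResidual_of_coprime
    (Nat.Coprime.coprime_dvd_left (orderOf_dvd_of_pow_eq_one h.g3) (by norm_num))
  have hn : (pResidual 2 G).Normal := inferInstance
  obtain ⟨v, hv, hv'⟩ := h.bm.symm.exists_u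
  have hvB := h.bm.symm.Z_le hv
  have f2 := (h.g1.all _ h.z'Z v hvB).resolve_left (h.bm.comm_ne h.z'Z
    (fun e => h.z'E (h.bm.mem_E' h.z'Z e)) hvB (h.bm.Q_eq ▸ hv'))
  have h1 : z⁻¹ * (g * z * g⁻¹) ∈ pResidual 2 G := by
    simpa [mul_assoc] using mul_mem (hn.conj_mem' g hg z) (inv_mem hg)
  have hz : z ∈ pResidual 2 G := by
    have := mul_mem h1 (hn.conj_mem _ (inv_mem h1) v)
    have e := h.g1.mem.2.1 v hvB
    rw [show z⁻¹ * (g * z * g⁻¹) * (v * (z⁻¹ * (g * z * g⁻¹))⁻¹ * v⁻¹) =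
      z⁻¹ * ⁅g * z * g⁻¹, v⁆ * (v * z) * v⁻¹ by rw [commutatorElement_def]; group, f2, e] at this
    simpa using this
  have hz' := hn.conj_mem z hz g
  refine ⟨⟨z, hz⟩, ⟨_, hz'⟩, fun e => h.g1.ne (congrArg Subtype.val e), fun e => h.z'E ?_,
    fun e => h.z'E ?_, Subtype.ext h.zZ.2.2, Subtype.ext h.z'Z.2.2,
    Subtype.ext (h.bm.Z_comm h.z'Z z h.zZ), fun x a b => ?_⟩
  · rw [show g * z * g⁻¹ = 1 from congrArg Subtype.val e]; exact one_mem _
  · rw [show g * z * g⁻¹ = z from congrArg Subtype.val e.symm]; exact h.g1.mem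
  have hV : zpowers z ⊔ zpowers (g * z * g⁻¹) ≤ pResidual 2 G :=
    sup_le (zpowers_le.2 hz) (zpowers_le.2 hz')
  have hx := h.memQ (h.cent_V (zpowers_le.1 (le_centralizer_iff.1 (sup_le
    (le_centralizer_iff.1 (cent_zpowers z ▸ zpowers_le.2 (mem_centralizer_singleton_iff.2
      (congrArg Subtype.val a.symm.eq)))) (le_centralizer_iff.1 (cent_zpowers (g * z * g⁻¹) ▸
      zpowers_le.2 (mem_centralizer_singleton_iff.2 (congrArg Subtype.val b.symm.eq))))))))
  simp only [Subtype.ext_iff]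
  refine h.memV (hx.elim id fun e => ?_)
  rwa [show c = 1 from by_contra fun c1 => h.c_notMem c1
    ((Subgroup.mul_mem_cancel_right _ x.2).1 (hV e)), one_mul] at e

end Cfg

/-- Dihedral or semidihedral groups. -/
def DS (S : Type*) [Group S] : Prop :=
  (∃ n : ℕ, 2 ≤ n ∧ Nonempty (S ≃* DihedralGroup n)) ∨ IsQuasiDihedral S

theorem DS.of_equiv {S T : Type*} [Group S] [Group T] (h : DS S) (e : S ≃* T) : DS T := by
  rcases h with ⟨n, a, ⟨f⟩⟩ | ⟨n, a, b, x, y, c1, c2, c3⟩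
  · exact Or.inl ⟨n, a, ⟨e.symm.trans f⟩⟩
  · exact Or.inr ⟨n, a, (Nat.card_congr e.toEquiv).symm.trans b, e x, e y, (e.orderOf_eq x).trans c1,
      (e.orderOf_eq y).trans c2, by rw [← map_inv, ← map_mul, ← map_mul, c3, map_pow]⟩

theorem ds_of_max2 {S : Subgroup G} {x z s : G} (h : P4.Max2 S x z s) : DS S := by
  have hi : (zpowers (⟨x, h.xS⟩ : S)).index = 2 :=
    H3.index_zpowers_eq_of_card (by rw [h.card, orderOf_mk])
  have hs : (⟨s, h.sS⟩ : S) ∉ zpowers (⟨x, h.xS⟩ : S) := fun ⟨k, hk⟩ =>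
    h.sx ⟨k, congrArg Subtype.val hk⟩
  have s2 : (⟨s, h.sS⟩ : S) ^ 2 = 1 := Subtype.ext ((pow_two s).trans h.ss)
  have x1 : x ≠ 1 := fun e => h.z1 (by simpa [e] using h.zx)
  by_cases hd : s * x * s = x⁻¹
  · refine Or.inl ⟨_, ?_, H3.nonempty_mulEquiv_dihedral rfl hi hs s2 (Subtype.ext (by
      change s * x * s⁻¹ = x⁻¹
      rwa [h.s_inv]))⟩
    rw [orderOf_mk]
    exact (Nat.two_le_iff _).2 ⟨(orderOf_pos x).ne', fun e => x1 (orderOf_eq_one_iff.1 e)⟩
  have e := h.cases.resolve_left hd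
  obtain ⟨n, hn⟩ := H8.exists_orderOf_eq_pow_of_mem h.syl.pgrp h.xS
  obtain _ | n := n
  · exact absurd (orderOf_eq_one_iff.1 hn) x1
  have hz : x ^ 2 ^ n = z := (h.uniq (pow_mem (mem_zpowers x) _) (by
    rw [← pow_add, ← two_mul, ← pow_succ', ← hn, pow_orderOf_eq_one])).resolve_left
      (pow_ne_one_of_lt_orderOf (by positivity) (by rw [hn, pow_succ]; have := Nat.two_pow_pos n; omega))
  refine Or.inr (H3.isQuasiDihedral_of (n := n + 1) ?_ (by rw [orderOf_mk, hn]) hi hs s2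
    (Subtype.ext ?_))
  · obtain _ | _ | n := n
    · rw [← hz, pow_zero, pow_one, inv_mul_cancel] at e
      have : x = s⁻¹ * (s * x * s) * s⁻¹ := by group
      rw [e, mul_one, ← mul_inv_rev, h.ss, inv_one] at this
      exact absurd this x1
    · rw [← hz, show x⁻¹ * x ^ 2 ^ (0 + 1) = x by group] at e
      have := h.cs x (mem_zpowers x) (by
        rw [Commute, SemiconjBy, ← mul_left_inj s, e, mul_assoc, h.ss, mul_one])
      exact absurd (by rw [← hz, ← this]; exact pow_two x) h.z1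
    · omega
  · change s * x * s⁻¹ = x ^ (2 ^ n - 1)
    rw [h.s_inv, e, ← hz, inv_mul_eq_iff_eq_mul, ← pow_succ', Nat.sub_add_cancel Nat.one_le_two_pow]

theorem ZN.main (h : ZN G) {S : Subgroup G} (hS : IsPGroup 2 S) (hi : ¬ 2 ∣ S.relIndex ⊤)
    (hR : S ⊓ pResidual 2 G ≠ ⊥) : (∃ M : Subgroup (pResidual 2 G), IsStronglyEmbedded M) ∨
      DS (S ⊓ pResidual 2 G : Subgroup G) := by
  by_cases hT : ∃ T : Subgroup G, IsPGroup 2 T ∧ T ≠ ⊥ ∧
    ∃ H₁ H₂, ML H₁ ∧ ML H₂ ∧ H₁ ≠ H₂ ∧ T ≤ H₁ ∧ T ≤ H₂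
  · obtain ⟨B, hB⟩ := exists_top hT
    obtain ⟨α, β, z, c, g, hc⟩ := h.exists_cfg hB
    obtain ⟨t, u, h1⟩ := hc.selfCent
    obtain ⟨R, x, z, s, h2⟩ := h1.exists_max2
    have h3 := (FT.IsSyl.mk le_top hS hi).inf_normal Nat.prime_two (K := pResidual 2 G)
      ⟨le_top, (normalizer_eq_top _).ge⟩
    obtain ⟨k, -, e⟩ := exists_conj_eq_sylow le_top (h3.pgrp.comap_subtype (K := pResidual 2 G))
      (by rw [relIndex_top_right]; exact h3.ndvd) le_top h2.syl.pgrp h2.syl.ndvd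
    exact Or.inr ((ds_of_max2 h2).of_equiv (((R.equivMapOfInjective _
      (MulAut.conj k).injective).trans (MulEquiv.subgroupCongr e)).trans
        (subgroupOfEquivOfLe inf_le_right)))
  obtain ⟨M, hM, hSM⟩ := exists_ML hS fun e => hR (by rw [e, bot_inf_eq])
  replace hSM := le_normalizer.trans hSM
  refine Or.inl (ZC.exists_stronglyEmbedded ⟨le_top, hS, hi⟩ hSM (fun e => hM.1 ?_) hR
    fun s _ s1 _ hs g hg => ?_)
  · rw [eq_top_iff.2 ((H8.sup_pResidual_eq_top (p := 2) (H := S)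
      (by rwa [← relIndex_top_right])).ge.trans (sup_le hSM e)), h.triv]
  · by_contra hc
    refine hT ⟨_, hS.to_le (zpowers_le.2 hg), by simpa using s1, M, _, hM, hM.conj g, fun e => hc ?_,
      zpowers_le.2 (hSM hg), zpowers_le.2 (conj_mem_conj_smul (hSM hs))⟩
    rw [← hM.norm, mem_normalizer_iff_conj_smul, conj_smul_pCoreOf, ← e]

end Cfsg.Agent.H2.AM
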