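import Cfsg.Agent.H2.Amal1

/-!
The amalgam method for two minimal parabolics with quotient `S₃`.
-/

set_option autoImplicit false
set_option linter.unusedSectionVars false

namespace Cfsg.Agent.H2.AM

open Subgroup Cfsg H1
open scoped commutatorElement Pointwise

variable {G : Type*} [Group G] [Finite G]

/-- `Z_α`. -/
def Zv (α : Subgroup G) : Subgroup G := oz (pCoreOf 2 α)

theorem conj_Zv (g : G) (α : Subgroup G) : MulAut.conj g • Zv α = Zv (MulAut.conj g • α) := by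
  rw [Zv, conj_oz, conj_smul_pCoreOf, Zv]

theorem le_norm_Zv (α : Subgroup G) : α ≤ normalizer (Zv α : Set G) :=
  (le_normalizer_pCoreOf 2 α).trans (norm_le_norm_oz _)

theorem conj_self {α : Subgroup G} {g : G} (hg : g ∈ α) : MulAut.conj g • α = α :=
  mem_normalizer_iff_conj_smul.1 (le_normalizer hg)

theorem cent_zpowers (x : G) : centralizer (zpowers x : Set G) = centralizer {x} := by
  rw [zpowers_eq_closure, centralizer_closure]

/-- `Z_α` and `Z_β` commute. -/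
def Cm (α β : Subgroup G) : Prop := Zv α ≤ centralizer (Zv β : Set G)

theorem Cm.symm {α β : Subgroup G} (h : Cm α β) : Cm β α := le_centralizer_iff.1 h

theorem Cm.conj {α β : Subgroup G} (h : Cm α β) (g : G) :
    Cm (MulAut.conj g • α) (MulAut.conj g • β) := by
  unfold Cm
  rw [← conj_Zv, ← conj_Zv, centralizer_conj_smul]
  exact conj_smul_mono g h

/-- `r` generates `[Z_α, T]`. -/
structure Gen (α T : Subgroup G) (r : G) : Prop where
  ne : r ≠ 1
  mem : r ∈ oz T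
  all : ∀ z ∈ Zv α, ∀ t ∈ T, ⁅z, t⁆ = 1 ∨ ⁅z, t⁆ = r
  ex : ∃ z ∈ Zv α, ∃ t ∈ T, ⁅z, t⁆ = r

theorem Gen.uniq {α T : Subgroup G} {r s : G} (h : Gen α T r) (h' : Gen α T s) : r = s := by
  obtain ⟨z, hz, t, ht, rfl⟩ := h.ex
  exact (h'.all z hz t ht).resolve_left h.ne

theorem Par.gen_of {B P : Subgroup G} (h : Par B P) {z t : G} (hz : z ∈ Zv P) (ht : t ∈ B)
    (hne : ⁅z, t⁆ ≠ 1) : Gen P B ⁅z, t⁆ :=
  ⟨hne, (h.comm_eq hz ht hne).1, (h.comm_eq hz ht hne).2, z, hz, t, ht, rfl⟩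

theorem Par.le_Q {B P X : Subgroup G} (h : Par B P) (hX : X ≤ B)
    (hc : X ≤ centralizer (Zv P : Set G)) : X ≤ pCoreOf 2 P :=
  fun _ hx => h.mem_Q (hX hx) (hc hx)

/-- An amalgam. -/
structure Am (α β : Subgroup G) : Prop where
  p1 : Par (α ⊓ β) α
  p2 : Par (α ⊓ β) β
  triv : ∀ U ≤ α ⊓ β, α ≤ normalizer (U : Set G) → β ≤ normalizer (U : Set G) → U = ⊥

/-- `Z_β Z_α` is normal in `G_α`. -/
def Ap (α β : Subgroup G) : Prop := α ≤ normalizer ((Zv β ⊔ Zv α : Subgroup G) : Set G)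

theorem Ap.conj {α β : Subgroup G} (h : Ap α β) (g : G) :
    Ap (MulAut.conj g • α) (MulAut.conj g • β) := by
  unfold Ap
  rw [← conj_Zv, ← conj_Zv, ← smul_sup, normalizer_conj_smul]
  exact conj_smul_mono g h

theorem Ap.nbr {α β : Subgroup G} (h : Ap α β) {g : G} (hg : g ∈ α) :
    Ap α (MulAut.conj g • β) := by
  have := h.conj g
  rwa [conj_self hg] at this

theorem Ap.sup_eq {α β : Subgroup G} (h : Ap α β) {g : G} (hg : g ∈ α) :
    Zv (MulAut.conj g • β) ⊔ Zv α = Zv β ⊔ Zv α := by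
  rw [← mem_normalizer_iff_conj_smul.1 (h hg), smul_sup, conj_Zv, conj_Zv, conj_self hg]

namespace Am

variable {α β : Subgroup G} (h : Am α β)
include h

theorem symm : Am β α :=
  ⟨inf_comm α β ▸ h.p2, inf_comm α β ▸ h.p1, fun U h1 h2 h3 => h.triv U (inf_comm β α ▸ h1) h3 h2⟩

theorem conj (g : G) : Am (MulAut.conj g • α) (MulAut.conj g • β) := by
  refine ⟨by rw [← smul_inf]; exact h.p1.conj g, by rw [← smul_inf]; exact h.p2.conj g,
    fun U h1 h2 h3 => ?_⟩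
  obtain ⟨U, rfl⟩ : ∃ U', U = MulAut.conj g • U' := ⟨_, (conj_smul_cancel_inv U g).symm⟩
  rw [← smul_inf] at h1
  rw [normalizer_conj_smul] at h2 h3
  rw [h.triv U (pointwise_smul_le_pointwise_smul_iff.1 h1) (pointwise_smul_le_pointwise_smul_iff.1 h2)
    (pointwise_smul_le_pointwise_smul_iff.1 h3), Subgroup.smul_bot]

theorem nbr {g : G} (hg : g ∈ α) : Am α (MulAut.conj g • β) := by
  have := h.conj g
  rwa [conj_self hg] at this

theorem inf_nbr {g : G} (hg : g ∈ α) (hg' : g ∉ β) :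
    α ⊓ β ⊓ (α ⊓ MulAut.conj g • β) = pCoreOf 2 α := by
  rw [← h.p1.inf_conj hg fun e => hg' e.2, smul_inf, conj_self hg]

theorem gen {g : G} (hg : g ∈ α) (hg' : g ∉ β) {X K : Subgroup G} (hX : X ≤ α ⊓ β)
    (hn : ¬ X ≤ pCoreOf 2 α) (h1 : α ⊓ MulAut.conj g • β ≤ K) (h2 : X ≤ K) : α ≤ K :=
  (h.nbr hg).p1.gen (hX.trans inf_le_left) (fun e => hn (h.inf_nbr hg hg' ▸ le_inf hX e)) h1 h2

theorem three {g q : G} (hg : g ∈ α) (hg' : g ∉ β) (hq : q ∈ α ⊓ β) (hq' : q ∉ pCoreOf 2 α)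
    {k : G} (hk : k ∈ α) : MulAut.conj k • β = β ∨ MulAut.conj k • β = MulAut.conj g • β ∨
      MulAut.conj k • β = MulAut.conj q • MulAut.conj g • β := by
  have e : ∀ a : G, a⁻¹ * k ∈ α ⊓ β → MulAut.conj k • β = MulAut.conj a • β := fun a ha => by
    rw [← mul_inv_cancel_left a k, conj_smul_mul, conj_self ha.2]
  rcases mem_three h.p1.i3 hg (mul_mem hq.1 hg) (fun e => hg' e.2)
    (fun e => hg' ((Subgroup.mul_mem_cancel_left _ hq.2).1 e.2)) (fun e => hq' (h.inf_nbr hg hg' ▸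
      mem_inf.2 ⟨hq, hq.1, mem_conj_smul.2 (by simpa [mul_assoc] using e.2)⟩)) hk with c | c | c
  exacts [Or.inl (conj_self c.2), Or.inr (Or.inl (e _ c)),
    Or.inr (Or.inr ((e _ c).trans (conj_smul_mul _ _ _)))]

theorem Q_ne_bot : oz (α ⊓ β) ≠ ⊥ := fun e => h.p1.nz (by
  rw [e]; exact le_centralizer_iff.1 bot_le)

theorem exists_q : ∃ q ∈ pCoreOf 2 α, q ∉ pCoreOf 2 β := SetLike.not_le_iff_exists.1 fun e => by
  have h1 := card_mul_relIndex h.p1.Q_le
  have h2 := card_mul_relIndex h.p2.Q_le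
  rw [h.p1.i2] at h1
  rw [h.p2.i2] at h2
  have h3 := eq_of_le_of_card_le e (by omega)
  exact h.Q_ne_bot (eq_bot_iff.2 (h.p1.zQ.trans (h.triv _ h.p1.Q_le (le_normalizer_pCoreOf 2 α)
    (h3 ▸ le_normalizer_pCoreOf 2 β)).le))

theorem Q_le (ha : Ap α β) {g : G} (hg : g ∈ α) :
    pCoreOf 2 α ⊓ pCoreOf 2 β ≤ pCoreOf 2 (MulAut.conj g • β) :=
  (h.nbr hg).p2.le_Q (inf_le_left.trans (h.nbr hg).p1.Q_le) (le_centralizer_iff.1
    (le_sup_left.trans ((ha.sup_eq hg).le.trans (sup_le (le_centralizer_iff.1 (inf_le_right.trans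
      (le_cent_oz _))) (le_centralizer_iff.1 (inf_le_left.trans (le_cent_oz _)))))))

theorem eq_one {s : G} (hs : s ∈ α ⊓ β) (h1 : α ≤ centralizer ({s} : Set G))
    (h2 : β ≤ centralizer ({s} : Set G)) : s = 1 := by
  rw [← cent_zpowers] at h1 h2
  exact zpowers_eq_bot.1 (h.triv _ (zpowers_le.2 hs) (le_normalizer_of_le_centralizer h1)
    (le_normalizer_of_le_centralizer h2))

end Am

/-- A class of amalgams. -/
structure Cls (E : Subgroup G → Subgroup G → Prop) : Prop where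
  am : ∀ {α β}, E α β → Am α β
  symm : ∀ {α β}, E α β → E β α
  conj : ∀ {α β} (g : G), E α β → E (MulAut.conj g • α) (MulAut.conj g • β)

/-- Paths. -/
def Pth (E : Subgroup G → Subgroup G → Prop) (f : ℕ → Subgroup G) : Prop :=
  ∀ i, E (f i) (f (i + 1)) ∧ ∃ g ∈ f (i + 1), f (i + 2) = MulAut.conj g • f i

/-- Prepending a vertex. -/
def cons (μ : Subgroup G) (f : ℕ → Subgroup G) : ℕ → Subgroup G
  | 0 => μ
  | n + 1 => f n

variable {E : Subgroup G → Subgroup G → Prop} {f : ℕ → Subgroup G}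

theorem Pth.shift (h : Pth E f) (k : ℕ) : Pth E fun n => f (k + n) := fun i => h (k + i)

theorem Pth.cons (hE : Cls E) (h : Pth E f) {g : G} (hg : g ∈ f 0) :
    Pth E (cons (MulAut.conj g • f 1) f)
  | 0 => ⟨by
      have := hE.symm (hE.conj g (h 0).1)
      rwa [conj_self hg] at this, g⁻¹, inv_mem hg, (conj_smul_inv_cancel _ _).symm⟩
  | i + 1 => h i

theorem Pth.alt (h : Pth E f) (h0 : Ap (f 0) (f 1)) (i : ℕ) :
    Ap (f i) (f (i + 1)) ∨ Ap (f (i + 1)) (f (i + 2)) := by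
  induction i with
  | zero => exact Or.inl h0
  | succ i ih =>
    refine ih.elim (fun e => Or.inr ?_) Or.inl
    obtain ⟨-, g, hg, e1⟩ := h i
    obtain ⟨-, k, hk, e2⟩ := h (i + 1)
    have := e.conj g
    rw [← e1, conj_self hg] at this
    exact e2 ▸ this.nbr hk

/-- Vertices at distance less than `b` commute. -/
def Nb (E : Subgroup G → Subgroup G → Prop) (b : ℕ) : Prop :=
  ∀ m < b, ∀ f, Pth E f → Cm (f 0) (f m)

theorem Nb.le_Q (hE : Cls E) {b : ℕ} (hb : Nb E b) (m : ℕ) (hm : m < b) : ∀ f, Pth E f →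
    Zv (f 0) ≤ pCoreOf 2 (f m) ∧ Zv (f m) ≤ pCoreOf 2 (f 0) := by
  induction m with
  | zero => exact fun f _ => ⟨oz_le _, oz_le _⟩
  | succ m ih =>
    intro f h
    have a1 := hE.am (h m).1
    have a2 := hE.am (h 0).1
    have := (ih (by omega) _ (h.shift 1)).2
    rw [add_comm 1 m] at this
    exact ⟨a1.p2.le_Q ((ih (by omega) f h).1.trans a1.p1.Q_le) (hb _ hm f h),
      a2.p1.le_Q (this.trans a2.p2.Q_le) (hb _ hm f h).symm⟩

section crit

variable (hE : Cls E) {n : ℕ} (hb : Nb E (n + 2)) (h : Pth E f) (hc : ¬ Cm (f 0) (f (n + 2)))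
include hE hb h

theorem zb_le : Zv (f (n + 2)) ≤ f 0 ⊓ f 1 := by
  have := (hb.le_Q hE (n + 1) (by omega) _ (h.shift 1)).2
  rw [show 1 + (n + 1) = n + 2 by omega] at this
  exact this.trans (hE.am (h 0).1).p2.Q_le

include hc

theorem crit : ∃ r, Gen (f 0) (f 0 ⊓ f 1) r ∧ Gen (f (n + 2)) (f (n + 1) ⊓ f (n + 2)) r := by
  obtain ⟨u, hu, hu'⟩ := SetLike.not_le_iff_exists.1 hc
  rw [mem_centralizer_iff] at hu'
  push Not at hu'
  obtain ⟨v, hv, hv'⟩ := hu'
  have h1 := (hE.am (h 0).1).p1.gen_of hu (zb_le hE hb h hv) fun e =>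
    hv' (commutatorElement_eq_one_iff_mul_comm.1 e).symm
  have a := hE.am (h (n + 1)).1
  have h2 := a.p2.gen_of hv (a.p1.Q_le ((hb.le_Q hE (n + 1) (by omega) _ h).1 hu)) fun e =>
    hv' (commutatorElement_eq_one_iff_mul_comm.1 e)
  refine ⟨_, h1, ?_⟩
  rwa [← inv_eq_of_mul_eq_one_right h1.mem.2.2, commutatorElement_inv]

theorem genl {g : G} (hg : g ∈ f 0) (hg' : g ∉ f 1) {K : Subgroup G}
    (h1 : f 0 ⊓ MulAut.conj g • f 1 ≤ K) (h2 : Zv (f (n + 2)) ≤ K) : f 0 ≤ K :=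
  (hE.am (h 0).1).gen hg hg' (zb_le hE hb h) (fun e => hc (Cm.symm (e.trans (le_cent_oz _)))) h1 h2

theorem norml {X : Subgroup G} (hX : X ≤ f (n + 1) ⊓ f (n + 2)) :
    Zv (f (n + 2)) ≤ normalizer ((X ⊔ Zv (f 0) : Subgroup G) : Set G) := by
  obtain ⟨r, h1, h2⟩ := crit hE hb h hc
  refine le_normalizer_sup_of_commutator_le (((zb_le hE hb h).trans inf_le_left).trans
    (le_norm_Zv _)) ?_
  rw [commutator_comm, commutator_le]
  intro z hz x hx
  rcases h2.all z hz x (hX hx) with e | e <;> rw [e]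
  exacts [one_mem _, mem_sup_right ((hE.am (h 0).1).p1.oz_le_Z h1.mem)]

theorem ap_of_cm {g : G} (hg : g ∈ f 0) (hg' : g ∉ f 1)
    (hcm : Cm (MulAut.conj g • f 1) (f (n + 1))) : Ap (f 0) (MulAut.conj g • f 1) := by
  have a := hE.am (h n).1
  exact genl hE hb h hc hg hg' (le_normalizer_sup (inf_le_right.trans (le_norm_Zv _))
    (inf_le_left.trans (le_norm_Zv _))) (norml hE hb h hc ((a.p2.le_Q ((hb.le_Q hE (n + 1)
      (by omega) _ (h.cons hE hg)).1.trans a.p1.Q_le) hcm).trans (hE.am (h (n + 1)).1).p1.Q_le))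

theorem not_ap : ¬ Ap (f (n + 1)) (f (n + 2)) := fun ha => by
  obtain ⟨-, g, hg, e⟩ := h n
  have := ha.sup_eq (inv_mem hg)
  rw [e, conj_smul_inv_cancel, ← e] at this
  exact hc (Cm.symm (le_sup_left.trans (this.ge.trans (sup_le (hb n (by omega) f h).symm
    (hb (n + 1) (by omega) f h).symm))))

theorem caseA (ha : Ap (f 0) (f 1)) {g : G} (hg : g ∈ f 0) (hg' : g ∉ f 1) {k : G}
    (hk : k ∈ MulAut.conj g • f 1) (hk' : k ∉ f 0) : ¬ Cm (MulAut.conj k • f 0) (f n) := by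
  intro hcm
  have h1 := h.cons hE hg
  have h2 := h1.cons hE (g := k) hk
  obtain ⟨β, hβ⟩ : ∃ β, β = MulAut.conj g • f 1 := ⟨_, rfl⟩
  rw [← hβ] at h1 h2 hk
  have a0 : Am β (f 0) := hE.am (h1 0).1
  have aβ : Ap (f 0) β := hβ ▸ ha.nbr hg
  have hμ : Zv (MulAut.conj k • f 0) ≤ f (n + 1) ⊓ f (n + 2) := by
    have b1 := (hb.le_Q hE (n + 1) (by omega) _ h2).1
    have a := hE.am (h1 n).1
    obtain ⟨-, c, hc1, hc2⟩ := h1 n
    change f (n + 1) = _ at hc2
    have b2 := ((h.alt ha n).resolve_right (not_ap hE hb h hc)).nbr (inv_mem hc1)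
    rw [hc2, conj_smul_inv_cancel] at b2
    have b3 := a.symm.Q_le b2 hc1
    rw [← hc2] at b3
    exact ((le_inf (a.p2.le_Q (b1.trans a.p1.Q_le) hcm) b1).trans b3).trans
      (hE.am (h (n + 1)).1).p1.Q_le
  have hX := norml hE hb h hc hμ
  obtain ⟨X, hXd⟩ : ∃ X, X = Zv (MulAut.conj k • f 0) ⊔ Zv (f 0) := ⟨_, rfl⟩
  rw [← hXd] at hX
  obtain ⟨q, hq, hq'⟩ := a0.symm.exists_q
  have hq0 := a0.p2.Q_le hq
  have hV : nclIn β (Zv (f 0)) = X ⊔ MulAut.conj q • X := by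
    have : X ≤ nclIn β (Zv (f 0)) :=
      hXd ▸ sup_le (conj_Zv k _ ▸ conj_le_nclIn _ hk) (le_nclIn _ _)
    refine le_antisymm (nclIn_le_iff.2 fun c hc => ?_) (sup_le this ?_)
    · rw [conj_Zv]
      rcases a0.three hk hk' hq0 hq' hc with e | e | e <;> rw [e]
      · exact le_sup_of_le_left (hXd ▸ le_sup_right)
      · exact le_sup_of_le_left (hXd ▸ le_sup_left)
      · rw [← conj_Zv]
        exact le_sup_of_le_right (conj_smul_mono q (hXd ▸ le_sup_left))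
    · rw [← mem_normalizer_iff_conj_smul.1 (le_normalizer_nclIn β (Zv (f 0)) hq0.1)]
      exact conj_smul_mono q this
  have hQ : pCoreOf 2 β ≤ normalizer (X : Set G) := hXd ▸ le_normalizer_sup
    (((a0.nbr hk).p1.Q_le.trans inf_le_right).trans (le_norm_Zv _))
    ((a0.p1.Q_le.trans inf_le_right).trans (le_norm_Zv _))
  have := a0.triv (nclIn β (Zv (f 0))) ((nclIn_le_of_normal (hb.le_Q hE 1 (by omega) _ h1).2
    (le_normalizer_pCoreOf 2 β)).trans a0.p1.Q_le) (le_normalizer_nclIn _ _)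
    (genl hE hb h hc hg hg' (hβ ▸ inf_le_right.trans (le_normalizer_nclIn _ _)) (by
      rw [hV]
      refine le_normalizer_sup hX fun v hv => ?_
      have hv0 := (zb_le hE hb h hv).1
      have c1 : v⁻¹ * q⁻¹ * v ∈ pCoreOf 2 (f 0) :=
        conj_mem_of_le_normalizer' (le_normalizer_pCoreOf 2 _) hv0 (inv_mem hq)
      rw [normalizer_conj_smul, mem_conj_smul, show q⁻¹ * v * q = v * (v⁻¹ * q⁻¹ * v * q) by group]
      refine mul_mem (hX hv) (hQ (mul_mem_two a0.p1.i2 (a0.p2.Q_le c1) hq0 (fun e => hq' ?_) hq'))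
      have c2 := (a0.symm.nbr hv0).Q_le (aβ.nbr hv0) (inv_mem hv0) (mem_inf.2 ⟨inv_mem hq, by
        rw [← conj_smul_pCoreOf]; exact mem_conj_smul.2 e⟩)
      rwa [conj_smul_inv_cancel, inv_mem_iff] at c2))
  exact hc (((le_nclIn _ _).trans this.le).trans bot_le)

theorem central {g : G} (hg : g ∈ f 0) (hg' : g ∉ f 1) {s : G}
    (h1 : s ∈ oz (MulAut.conj g • f 1 ⊓ f 0)) (h2 : s ∈ Zv (f (n + 1))) :
    f 0 ≤ centralizer ({s} : Set G) :=
  genl hE hb h hc hg hg' (fun x hx => mem_centralizer_singleton_iff.2 (h1.2.1 x ⟨hx.2, hx.1⟩))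
    fun x hx => mem_centralizer_singleton_iff.2 (hb 1 (by omega) _ (h.shift (n + 1)) h2 x hx)

end crit

theorem exists_config (hE : Cls E) {n : ℕ} (hb : Nb E (n + 2)) (h : Pth E f)
    (hc : ¬ Cm (f 0) (f (n + 2))) : ∃ F s, Pth E F ∧ ¬ Cm (F 0) (F (n + 2)) ∧
      ¬ Cm (F 2) (F (n + 4)) ∧ (∃ g ∈ F 2, g ∉ F 3 ∧ F 1 = MulAut.conj g • F 3) ∧
      Gen (F 0) (F 0 ⊓ F 1) s ∧ s ∈ Zv (F (n + 2)) ∧ F 1 ≤ centralizer ({s} : Set G) := by
  have nb : ∀ f, Pth E f → ∃ g ∈ f 0, g ∉ f 1 := fun f h => by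
    obtain ⟨g, h1, h2⟩ := (hE.am (h 0).1).p1.exists_notMem
    exact ⟨g, h1, fun e => h2 ⟨h1, e⟩⟩
  by_cases hA : ∃ f, Pth E f ∧ ¬ Cm (f 0) (f (n + 2)) ∧ Ap (f 0) (f 1)
  · obtain ⟨f, h, hc, ha⟩ := hA
    obtain ⟨g, hg, hg'⟩ := nb f h
    have h1 := h.cons hE hg
    obtain ⟨k, hk, hk'⟩ := nb _ h1
    have a0 := hE.am (h1 0).1
    obtain ⟨q, hq, hq'⟩ := a0.symm.exists_q
    have hq0 := a0.p2.Q_le hq
    have hk2 := mul_mem hq0.1 hk
    have c1 := caseA hE hb h hc ha hg hg' hk hk'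
    have c2 := caseA hE hb h hc ha hg hg' hk2 fun e => hk' ((Subgroup.mul_mem_cancel_left _ hq0.2).1 e)
    obtain ⟨r, r1, r2⟩ := crit hE hb (h1.cons hE hk) c1
    obtain ⟨s, s1, s2⟩ := crit hE hb (h1.cons hE hk2) c2
    obtain rfl := r2.uniq s2
    refine ⟨_, r, h1.cons hE hk, c1, hc, ⟨g, hg, hg', rfl⟩, r1,
      (hE.am (h1 n).1).p2.oz_le_Z r2.mem, ?_⟩
    have a1 := a0.nbr hk
    refine a1.p1.gen (X := cons _ f 0 ⊓ MulAut.conj (q * k) • cons _ f 1) inf_le_left (fun e => ?_)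
      (fun x hx => mem_centralizer_singleton_iff.2 (r1.mem.2.1 x ⟨hx.2, hx.1⟩))
      fun x hx => mem_centralizer_singleton_iff.2 (s1.mem.2.1 x ⟨hx.2, hx.1⟩)
    refine hq' (a0.inf_nbr hk hk' ▸ mem_inf.2 ⟨hq0, a1.p1.mem_of_norm hq0.1
      (mem_normalizer_of_conj_smul_le ?_)⟩)
    rwa [smul_inf, conj_self hq0.1, ← conj_smul_mul]
  · push Not at hA
    have key : ∀ f, Pth E f → ¬ Cm (f 0) (f (n + 2)) → ∀ g ∈ f 0, g ∉ f 1 →
        ¬ Cm (MulAut.conj g • f 1) (f (n + 1)) := fun f h hc g hg hg' e => hA f h hc (by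
      have := (ap_of_cm hE hb h hc hg hg' e).nbr (inv_mem hg)
      rwa [conj_smul_inv_cancel] at this)
    obtain ⟨g, hg, hg'⟩ := nb f h
    have h1 := h.cons hE hg
    have c1 := key f h hc g hg hg'
    obtain ⟨k, hk, hk'⟩ := nb _ h1
    have c2 := key _ h1 c1 k hk hk'
    obtain ⟨r, r1, r2⟩ := crit hE hb (h1.cons hE hk) c2
    have := (hE.am (h1 n).1).p2.oz_le_Z r2.mem
    exact ⟨_, r, h1.cons hE hk, c2, hc, ⟨g, hg, hg', rfl⟩, r1, this,
      central hE hb h1 c1 hk hk' r1.mem this⟩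

theorem cm_of_nb (hE : Cls E) {n : ℕ} (hb : Nb E (n + 2)) (h : Pth E f) : Cm (f 0) (f (n + 2)) := by
  by_contra hc
  obtain ⟨F, s, h, c1, c2, ⟨g, hg, hg', e⟩, s1, s2, s3⟩ := exists_config hE hb h hc
  have a0 := hE.am (h 0).1
  have a1 := hE.am (h 1).1
  have q1 := fun i => hb.le_Q hE 1 (by omega) _ (h.shift i)
  have h2 := h.shift 2
  rw [show n + 4 = 2 + (n + 2) by omega] at c2
  refine s1.ne (a1.eq_one (a1.p1.Q_le (a0.p2.zQ s1.mem)) s3 (genl hE hb h2 c2 hg hg'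
    (inf_le_right.trans (e.ge.trans s3)) fun x hx => mem_centralizer_singleton_iff.2 ?_))
  rcases n with _ | n
  swap
  · rw [show 2 + (n + 1 + 2) = n + 1 + 2 + 2 by omega] at hx
    exact hb 2 (by omega) _ (h.shift (n + 1 + 2)) s2 x hx
  obtain ⟨r, -, r2⟩ := crit hE hb h2 c2
  obtain ⟨y, hy, hy'⟩ : ∃ y ∈ pCoreOf 2 (F 3), y * y = s := by
    obtain ⟨u, hu, hu'⟩ := SetLike.not_le_iff_exists.1 fun e : Zv (F 0) ≤ pCoreOf 2 (F 2) =>
      c1 (e.trans (le_cent_oz _))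
    obtain ⟨q, hq, hq'⟩ := SetLike.not_le_iff_exists.1 a1.p1.not_le_Q
    have hu1 : u ∈ pCoreOf 2 (F 1) := (q1 0).1 hu
    have hv1 := conj_mem_of_le_normalizer (le_normalizer_pCoreOf 2 _) hq.1 hu1
    have hv : q * u * q⁻¹ ∈ Zv (MulAut.conj q • F 0) := conj_Zv q _ ▸ conj_mem_conj_smul hu
    have hv' : q * u * q⁻¹ ∉ pCoreOf 2 (F 2) := fun e => hu' (by
      simpa [mul_assoc] using conj_mem_of_le_normalizer' (le_normalizer_pCoreOf 2 _) hq.2 e)
    obtain ⟨v, hvd⟩ : ∃ v, v = q * u * q⁻¹ := ⟨_, rfl⟩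
    rw [← hvd] at hv1 hv hv'
    have hy2 := mul_mem_two a1.p2.i2 (a1.p1.Q_le hu1) (a1.p1.Q_le hv1) hu' hv'
    have hne : ⁅u, v⁆ ≠ 1 := fun e => by
      have z1 : ∀ {γ : Subgroup G} {w : G}, Am γ (F 1) → w ∈ Zv γ → w ∉ pCoreOf 2 (F 2) →
          oz (γ ⊓ F 1) ⊔ zpowers w = Zv γ := fun a b c =>
        sup_zpowers_eq_of_relIndex_prime Nat.prime_two a.p1.oz_le_Z a.p1.iz b fun d =>
          c ((q1 1).1 (a.p2.oz_le_Z d))
      have a2 := (a0.symm.nbr hq.1).symm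
      have b1 : Cm (MulAut.conj q • F 0) (F 0) := (z1 a2 hv hv').ge.trans (sup_le
        (a2.p2.oz_le_Z.trans (hb 1 (by omega) _ h).symm) (le_centralizer_iff.1
          ((z1 a0 hu hu').ge.trans (sup_le ((oz_le_cent _).trans (centralizer_le
            (zpowers_le.2 (a0.p2.Q_le hv1)))) (zpowers_le.2 (by
              rw [cent_zpowers, mem_centralizer_singleton_iff]
              exact commutatorElement_eq_one_iff_mul_comm.1 e))))))
      obtain ⟨-, k, hk, e⟩ := h 0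
      change F 2 = _ at e
      have hk' : k ∉ F 0 := fun d => c1 (by
        change Cm _ (F 2)
        rw [e, conj_self d]
        exact (oz_le _).trans (le_cent_oz _))
      obtain ⟨q', hq1, hq2⟩ := SetLike.not_le_iff_exists.1 a0.symm.p1.not_le_Q
      rcases a0.symm.three hk hk' hq1 hq2 hq.1 with d | d | d
      · refine hq' (a0.symm.inf_nbr hk hk' ▸ mem_inf.2 ⟨a0.symm.p1.mem_of_norm hq.1 ?_, e ▸ hq⟩)
        rw [mem_normalizer_iff_conj_smul, smul_inf, d, conj_self hq.1]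
      · rw [d, ← e] at b1
        exact c1 b1.symm
      · have := b1.conj q'⁻¹
        rw [d, conj_smul_inv_cancel, ← e, conj_self (inv_mem hq1.2)] at this
        exact c1 this.symm
    have hy : u * v * (u * v) = s := by
      rw [← (s1.all u hu v (a0.p2.Q_le hv1)).resolve_left hne, commutatorElement_def,
        inv_eq_of_mul_eq_one_right hu.2.2, inv_eq_of_mul_eq_one_right hv.2.2, mul_assoc _ u v]
    by_cases hy3 : u * v ∈ pCoreOf 2 (F 3)
    · exact ⟨_, hy3, hy⟩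
    have a2 := hE.am (h 2).1
    have hn : ¬ Cm (F 1) (F 3) := fun d => hy3 (by
      have := ap_of_cm hE hb h2 c2 hg hg' (e ▸ d)
      change Ap (F 2) (MulAut.conj g • F 3) at this
      rw [← e] at this
      have := a1.symm.Q_le this (inv_mem hg) (mem_inf.2 ⟨hy2, mul_mem hu1 hv1⟩)
      rwa [e, conj_smul_inv_cancel] at this)
    obtain ⟨w, hw, hw'⟩ := SetLike.not_le_iff_exists.1 fun e : Zv (F 1) ≤ pCoreOf 2 (F 3) =>
      hn (e.trans (le_cent_oz _))
    refine ⟨u * v * w, mul_mem_two a2.p2.i2 (a2.p1.Q_le hy2) (a2.p1.Q_le ((q1 1).1 hw)) hy3 hw', ?_⟩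
    rw [← hy, mul_assoc (u * v) w, ← mul_assoc w, ← hw.2.1 _ (mul_mem hu1 hv1), mul_assoc _ w w,
      hw.2.2, mul_one]
  have a3 := hE.am (h 3).1
  have hy3 := a3.p1.Q_le hy
  have c := r2.mem.2.1 y hy3
  rw [← hy']
  rcases r2.all x hx y hy3 with e | e
  · exact ((commutatorElement_eq_one_iff_commute.1 e).mul_right
      (commutatorElement_eq_one_iff_commute.1 e)).eq
  · have : x * y = r * y * x := by rw [← e, commutatorElement_def]; group
    calc x * (y * y) = r * y * (x * y) := by rw [← mul_assoc, ← mul_assoc (r * y), ← this]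
      _ = r * (y * r) * y * x := by rw [this]; group
      _ = _ := by rw [c, ← mul_assoc r r, r2.mem.2.2]; group

theorem Am.not_cm {α β : Subgroup G} (h : Am α β) : ¬ Cm α β := fun hc => by
  obtain ⟨E, hEd⟩ : ∃ E : Subgroup G → Subgroup G → Prop, E = fun a b => Am a b ∧ Cm a b :=
    ⟨_, rfl⟩
  have hE : Cls E := by
    subst hEd
    exact ⟨fun a => a.1, fun a => ⟨a.1.symm, a.2.symm⟩, fun g a => ⟨a.1.conj g, a.2.conj g⟩⟩
  have hb : ∀ n, Nb E (n + 2) := fun n => by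
    induction n with
    | zero =>
      intro m hm f hf
      obtain rfl | rfl : m = 0 ∨ m = 1 := by omega
      exacts [(oz_le _).trans (le_cent_oz _), (hEd ▸ (hf 0).1 :).2]
    | succ n ih =>
      intro m hm f hf
      rcases Nat.lt_succ_iff_lt_or_eq.1 hm with e | rfl
      exacts [ih m e f hf, cm_of_nb hE ih hf]
  have key : ∀ g ∈ α ⊔ β, ∃ f m, Pth E f ∧ f 0 = MulAut.conj g • α ∧ f 1 = MulAut.conj g • β ∧
      f m = β := by
    have step : ∀ g, ∀ x ∈ (α : Set G) ∪ β, (∃ f m, Pth E f ∧ f 0 = MulAut.conj g • α ∧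
        f 1 = MulAut.conj g • β ∧ f m = β) → ∃ f m, Pth E f ∧ f 0 = MulAut.conj (g * x) • α ∧
        f 1 = MulAut.conj (g * x) • β ∧ f m = β := by
      rintro g x (hx | hx) ⟨f, m, hf, h0, h1, hm⟩
      · refine ⟨_, m + 2, (hf.cons hE (g := g * x * g⁻¹) (h0 ▸ conj_mem_conj_smul hx)).cons hE
          (one_mem _), ?_, ?_, hm⟩
        · change MulAut.conj 1 • f 0 = _
          rw [h0, map_one, one_smul, conj_smul_mul, conj_self hx]
        · change MulAut.conj _ • f 1 = _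
          rw [h1, ← conj_smul_mul, inv_mul_cancel_right]
      · refine ⟨_, m + 2, (hf.cons hE (one_mem _)).cons hE (g := g * x * g⁻¹) ?_, ?_, ?_, hm⟩
        · change _ ∈ MulAut.conj 1 • f 1
          rw [map_one, one_smul, h1]
          exact conj_mem_conj_smul hx
        · change MulAut.conj _ • f 0 = _
          rw [h0, ← conj_smul_mul, inv_mul_cancel_right]
        · change MulAut.conj 1 • f 1 = _
          rw [h1, map_one, one_smul, conj_smul_mul, conj_self hx]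
    intro g hg
    rw [sup_eq_closure] at hg
    induction hg using closure_induction_right with
    | one =>
      have e0 : E α β := hEd ▸ ⟨h, hc⟩
      refine ⟨fun n => if Even n then α else β, 1, fun i => ⟨?_, 1, one_mem _, ?_⟩, by simp,
        by simp, by simp⟩
      · by_cases e : Even i <;> simp [e, Nat.even_add_one, e0, hE.symm e0]
      · simp [Nat.even_add]
    | mul_right g _ x hx ih => exact step g x hx ih
    | mul_inv_cancel g _ x hx ih => exact step g x⁻¹ (hx.imp inv_mem inv_mem) ih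
  have := h.triv (nclIn (α ⊔ β) (Zv α)) (nclIn_le_iff.2 fun g hg => by
    obtain ⟨f, m, hf, h0, -, hm⟩ := key g hg
    have := ((hb m).le_Q hE m (by omega) f hf).1
    rw [h0, hm, ← conj_Zv] at this
    exact this.trans h.p2.Q_le) (le_sup_left.trans (le_normalizer_nclIn _ _))
    (le_sup_right.trans (le_normalizer_nclIn _ _))
  exact h.Q_ne_bot (eq_bot_iff.2 ((h.p1.oz_le_Z.trans (le_nclIn _ _)).trans this.le))

end Cfsg.Agent.H2.AM
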