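import Cfsg.Agent.H2.Amal2
import Cfsg.Agent.H6.Offender
import Cfsg.Agent.H1.PStd

/-!
Transvections on `Ω₁(Z(O₂(G)))` for solvable groups of characteristic two.
-/

set_option autoImplicit false
set_option linter.unusedSectionVars false

namespace Cfsg.Agent.H2.AM

open Subgroup Cfsg H1
open scoped commutatorElement Pointwise IsMulCommutative

variable {G : Type*} [Group G] [Finite G]

theorem isPGroup_zpowers {p k : ℕ} {x : G} (h : x ^ p ^ k = 1) : IsPGroup p (zpowers x) := by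
  rintro ⟨_, n, rfl⟩
  exact ⟨k, Subtype.ext (by
    change (x ^ n) ^ p ^ k = 1
    rw [← zpow_natCast, ← zpow_mul, mul_comm, zpow_mul, zpow_natCast, h, one_zpow])⟩

theorem le_of_norm {Y H D : Subgroup G} (hY : IsPGroup 2 Y) (hYH : Y ≤ H)
    (hi : ¬ 2 ∣ Y.relIndex H) (hD : IsPGroup 2 D) (hDH : D ≤ H) (h : D ≤ normalizer (Y : Set G)) :
    D ≤ Y :=
  le_sup_left.trans (sylow_maximal hi le_sup_right (sup_le hDH hYH)
    (IsPGroup.to_sup_of_normal_right' hD hY h)).le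

/-- The transvection calculus. -/
structure Sys (Y : Subgroup G) {X : Type*} [Group X] (π : G →* X) (F : Subgroup X)
    (T : X → G → Prop) : Prop where
  pg : IsPGroup 2 Y
  idx : ¬ 2 ∣ Y.relIndex ⊤
  cz : centralizer (oz Y : Set G) ≤ normalizer (Y : Set G)
  surj : Function.Surjective π
  kerN : π.ker ≤ centralizer (oz Y : Set G)
  kerQ : Y ⊓ π.ker ≤ pCoreOf 2 ⊤
  nF : F.Normal
  odd : Odd (Nat.card F)
  mem : ∀ {t w}, T t w → w ∈ Y ∧ π w = 1 ∧ w * w = 1 ∧ w ≠ 1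
  conj : ∀ {t w} (g : G), T t w → T (π g * t * (π g)⁻¹) (g * w * g⁻¹)
  uniq : ∀ {t w w'}, T t w → T t w' → w = w'
  sq : ∀ {t w}, T t w → t * t = 1
  ex : ∀ {t w}, T t w → ∃ f ∈ F, f ≠ 1 ∧ t * f * t⁻¹ = f⁻¹
  three : ∀ {t w f g}, T t w → f ∈ F → f ≠ 1 → t * f * t⁻¹ = f⁻¹ → g ∈ F → t * g * t⁻¹ = g⁻¹ →
    g = 1 ∨ g = f ∨ g = f⁻¹
  cube : ∀ {t w f}, T t w → f ∈ F → t * f * t⁻¹ = f⁻¹ → f ^ 3 = 1
  conj_eq : ∀ {t w g}, T t w → g ∈ F → ∃ i ∈ F, t * i * t⁻¹ = i⁻¹ ∧ g * t * g⁻¹ = t * i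
  dich : ∀ {t w f s w'}, T t w → f ∈ F → f ≠ 1 → t * f * t⁻¹ = f⁻¹ → T s w' →
    (s = t ∨ s = t * f ∨ s = t * f⁻¹) ∨ (Commute s t ∧ Commute s f)
  tri : ∀ {t w f w₁}, T (π t) w → f ∈ F → f ≠ 1 → π t * f * (π t)⁻¹ = f⁻¹ → T (π t * f) w₁ →
    t * w₁ * t⁻¹ = w₁ * w
  gen : ∀ A ∈ H5.elemMax 2 Y, A.map π ≤ closure {t | t ∈ A.map π ∧ ∃ w, T t w}

theorem exists_sys [Group.IsSolvable G] {Y : Subgroup G} (hY : IsPGroup 2 Y)
    (hi : ¬ 2 ∣ Y.relIndex ⊤) (hCQ : centralizer (pCoreOf 2 (⊤ : Subgroup G) : Set G) ≤ pCoreOf 2 ⊤)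
    (hz : centralizer (oz Y : Set G) ≤ normalizer (Y : Set G)) :
    ∃ (N : Subgroup G) (_ : N.Normal) (F : Subgroup (G ⧸ N)) (T : G ⧸ N → G → Prop),
      Sys Y (QuotientGroup.mk' N) F T := by
  have hp := Nat.prime_two
  obtain ⟨Q, hQ⟩ : ∃ Q, Q = pCoreOf 2 (⊤ : Subgroup G) := ⟨_, rfl⟩
  have hQn : ⊤ ≤ normalizer (Q : Set G) := hQ ▸ le_normalizer_pCoreOf 2 ⊤
  have hQY : Q ≤ Y := hQ ▸ pCoreOf_le_of_sylow le_top hY hi
  rw [← hQ] at hCQ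
  obtain ⟨W, hWd⟩ : ∃ W, W = oz Q := ⟨_, rfl⟩
  have hWn : W.Normal := normal_of_top_le_normalizer (hWd ▸ hQn.trans (norm_le_norm_oz Q))
  have hW : IsElementaryAbelian 2 W := hWd ▸ oz_elemAb Q
  have hWY : W ≤ Y := hWd ▸ (oz_le Q).trans hQY
  have hzW : oz Y ≤ W := hWd ▸ oz_le_oz hQY ((oz_le_cent Y).trans ((centralizer_le hQY).trans hCQ))
  have := hW.1
  have hW' := pow_eq_one_of_isElementaryAbelian hW
  let ρ := autRep hW' (MulAut.conjNormal : G →* MulAut W)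
  have hker : ∀ {x}, x ∈ ρ.ker ↔ x ∈ centralizer (W : Set G) := fun {x} =>
    stdRep_eq_one_iff hW' x
  have hkz : ρ.ker ≤ centralizer (oz Y : Set G) := fun x hx => centralizer_le hzW (hker.1 hx)
  have hnorm : ∀ D : Subgroup G, D.Normal → D ≤ normalizer (Y : Set G) → Y ⊓ D ≤ Q :=
    fun D _ hD => hQ ▸ ((SnIn.of_normal (H := D) inf_le_right
      (le_normalizer_inf hD le_normalizer)).trans (SnIn.of_normal le_top
        le_normalizer_of_normal)).le_pCoreOf (hY.to_le inf_le_left)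
  obtain ⟨π, hπ⟩ : ∃ π, π = QuotientGroup.mk' ρ.ker := ⟨_, rfl⟩
  have hπs : Function.Surjective π := hπ ▸ QuotientGroup.mk'_surjective _
  have hπk : π.ker = ρ.ker := hπ ▸ QuotientGroup.ker_mk' _
  have hO : pCore 2 (G ⧸ ρ.ker) = ⊥ := by
    have h1 : pCoreOf 2 (⊤ : Subgroup (G ⧸ ρ.ker)) ≤ Y.map π :=
      pCoreOf_le_of_sylow le_top (hY.map π) fun e => hi (e.trans (by
        rw [relIndex_top_right, relIndex_top_right]; exact index_map_dvd _ hπs))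
    rw [pCoreOf_top] at h1
    refine eq_bot_iff.2 fun x hx => ?_
    obtain ⟨y, hy, rfl⟩ := h1 hx
    have := hnorm ((pCore 2 _).comap π) inferInstance (fun d hd => by
      obtain ⟨y', hy', e⟩ := h1 hd
      rw [← mul_inv_cancel_left y' d]
      refine mul_mem (le_normalizer hy') (hz (hkz ?_))
      rw [← hπk, MonoidHom.mem_ker, map_mul, map_inv, e, inv_mul_cancel]) (mem_inf.2 ⟨hy, hx⟩)
    rw [mem_bot, ← MonoidHom.mem_ker, hπk, hker, hWd]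
    exact le_cent_oz Q this
  have hρ : Function.Injective (kerRep ρ) := (injective_iff_map_eq_one _).2 (kerRep_eq_one ρ)
  have hF : Odd (Nat.card (pPrimeCore 2 (G ⧸ ρ.ker))) :=
    Nat.coprime_two_right.1 (L.coprime_card_pPrimeCore 2)
  have hC := L.centralizer_pPrimeCore_le hp (L.isPSolvable_of_isSolvable hp) hO
  have act : ∀ (g : G) (w : W), kerRep ρ (π g) (eaOf hW' w) =
      eaOf hW' ⟨g * w * g⁻¹, hWn.conj_mem _ w.2 g⟩ := fun g w => by rw [hπ]; rfl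
  refine ⟨ρ.ker, inferInstance, pPrimeCore 2 _,
    fun t w => ∃ (hw : w ∈ W) (φ : _), H6.Tv (kerRep ρ) t (eaOf hW' ⟨w, hw⟩) φ, ?_⟩
  rw [← hπ]
  refine ⟨hY, hi, hz, hπs, hπk.le.trans hkz, hQ ▸ hnorm _ inferInstance (hπk.le.trans (hkz.trans hz)),
    inferInstance, hF, ?_, ?_, ?_, ?_, ?_, ?_, ?_, ?_, ?_, ?_, fun A hA => ?_⟩
  · rintro t w ⟨hw, φ, h⟩
    refine ⟨hWY hw, ?_, (pow_two w).symm.trans (hW.2 w hw), fun e => h.w0 ?_⟩
    · rw [← MonoidHom.mem_ker, hπk, hker]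
      exact le_centralizer_of_comm hW.1 hw
    · subst e; rfl
  · rintro t w g ⟨hw, φ, h⟩
    exact ⟨_, _, act g ⟨w, hw⟩ ▸ h.conj (π g)⟩
  · rintro t w w' ⟨hw, φ, h⟩ ⟨hw', φ', h'⟩
    exact congrArg Subtype.val ((eaOf hW').injective (h.uniq h').1)
  · rintro t w ⟨hw, φ, h⟩
    exact h.sq hρ
  · rintro t w ⟨hw, φ, h⟩
    exact h.exists_inv hρ hF hC
  · rintro t w f g ⟨hw, φ, h⟩
    exact h.three hρ hF
  · rintro t w f ⟨hw, φ, h⟩
    exact h.cube hρ hF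
  · rintro t w g ⟨hw, φ, h⟩
    exact h.conj_eq hρ
  · rintro t w f s w' ⟨hw, φ, h⟩ hf f1 e ⟨hw', φ', h'⟩
    obtain ⟨g, hg, g1, e'⟩ := h'.exists_inv hρ hF hC
    exact (h.dichotomy hρ hF hf f1 e h' hg g1 e').imp_right fun a => ⟨a.1, a.2.1⟩
  · rintro t w f w₁ ⟨hw, φ, h⟩ hf f1 e ⟨hw', φ', h'⟩
    obtain ⟨w₂, φ₂, h₂, -, a, -⟩ := h.tri hρ hF hf f1 e
    have := h.ap w₂
    rw [a, one_smul, (h₂.uniq h').1, act] at this
    exact congrArg Subtype.val ((eaOf hW').injective this)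
  refine (H6.Off.le_closure hρ hF hC _ ((hY.to_le hA.1).map π) (by
    have := hA.2.1.1; infer_instance) ?_).trans (closure_mono ?_)
  · have h1 := relIndex_le_of_elemMax hA (inf_le_left : A ⊓ ρ.ker ≤ A) hWY hW
      fun x hx => hker.1 hx.2
    have h2 := card_inf_mul_relIndex (A ⊓ ρ.ker) W
    rw [inf_relIndex_left, L.relIndex_eq_card_map_mk' ρ.ker, ← hπ] at h1
    have h4 : Nat.card (A ⊓ ρ.ker ⊓ W : Subgroup G) ≤ Nat.card (H6.fixS (kerRep ρ) (A.map π)) :=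
      Nat.card_le_card_of_injective (fun w => ⟨eaOf hW' ⟨w, w.2.2⟩, H6.mem_fixS.2 (by
        rintro _ ⟨a, ha, rfl⟩
        have := hA.2.1.1
        rw [act]
        exact congrArg (eaOf hW') (Subtype.ext
          (mul_inv_eq_iff_eq_mul.2 (setLike_mul_comm ha w.2.1.1))))⟩) fun a b h =>
        Subtype.ext (congrArg Subtype.val ((eaOf hW').injective (congrArg Subtype.val h)) :)
    unfold H6.Off
    rw [card_EA, ← h2, mul_comm]
    exact Nat.mul_le_mul h1 h4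
  · rintro t ⟨ht, w, φ, h⟩
    obtain ⟨w, rfl⟩ := (eaOf hW').surjective w
    exact ⟨ht, w, w.2, φ, h⟩

end Cfsg.Agent.H2.AM
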