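import Cfsg.Agent.H2.Amal3

/-!
Minimal parabolics over the Baumann subgroup in a solvable group of characteristic two.
-/

set_option autoImplicit false
set_option linter.unusedSectionVars false

namespace Cfsg.Agent.H2.AM

open Subgroup Cfsg H1
open scoped commutatorElement Pointwise

variable {G : Type*} [Group G] [Finite G]

theorem Gen.comm_eq {α T : Subgroup G} {r : G} (h : Gen α T r) : ⁅Zv α, T⁆ = zpowers r := by
  refine le_antisymm (commutator_le.2 fun z hz t ht => ?_) (zpowers_le.2 ?_)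
  · rcases h.all z hz t ht with e | e <;> rw [e]
    exacts [one_mem _, mem_zpowers _]
  · obtain ⟨z, hz, t, ht, rfl⟩ := h.ex
    exact commutator_mem_commutator hz ht

/-- `V_P`. -/
def VP (B P : Subgroup G) : Subgroup G := nclIn P ⁅Zv P, B⁆

theorem conj_VP (g : G) (B P : Subgroup G) :
    MulAut.conj g • VP B P = VP (MulAut.conj g • B) (MulAut.conj g • P) := by
  rw [VP, VP, conj_smul_nclIn, conj_smul_commutator, conj_Zv]

theorem VP_map {G' : Type*} [Group G'] [Finite G'] {f : G →* G'} (hf : Function.Injective f)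
    (B P : Subgroup G) : VP (B.map f) (P.map f) = (VP B P).map f := by
  rw [VP, VP, ← nclIn_map hf, map_commutator, Zv, Zv, pCoreOf_map hf, oz_map hf]

theorem Par.VP_le {B P : Subgroup G} (h : Par B P) : VP B P ≤ Zv P :=
  nclIn_le_of_normal (commutator_le_of_le_normalizer (h.le.trans h.norm_Z)) h.norm_Z

theorem Par.VP_ne_bot {B P : Subgroup G} (h : Par B P) : VP B P ≠ ⊥ := fun e =>
  h.not_le_Q (h.le_Q le_rfl (commutator_eq_bot_iff_le_centralizer'.1
    (eq_bot_iff.2 ((le_nclIn _ _).trans e.le))))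

theorem conj_zpowers_le {g w : G} {K : Subgroup G} :
    MulAut.conj g • zpowers w ≤ K ↔ g * w * g⁻¹ ∈ K := by
  rw [conj_smul_le_iff, zpowers_le, mem_conj_smul, inv_inv]

theorem inf_pCoreOf_le {p : ℕ} {H P : Subgroup G} (h : P ≤ H) : pCoreOf p H ⊓ P ≤ pCoreOf p P :=
  (SnIn.of_normal inf_le_right (le_normalizer_inf (h.trans (le_normalizer_pCoreOf p H))
    le_normalizer)).le_pCoreOf ((isPGroup_pCoreOf p H).to_le inf_le_left)

namespace Sys

variable {Y : Subgroup G} {X : Type*} [Group X] [Finite X] {π : G →* X} {F : Subgroup X}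
  {T : X → G → Prop} (h : Sys Y π F T)
include h

theorem le_Y {D : Subgroup G} (hD : IsPGroup 2 D) (hn : D ≤ normalizer (Y : Set G)) : D ≤ Y :=
  le_of_norm h.pg le_top h.idx hD le_top hn

theorem kN {c : G} (hc : π c = 1) : c ∈ normalizer (Y : Set G) := h.cz (h.kerN hc)

theorem conj_mem {g y y' : G} (hy : y ∈ Y) (hy' : y' ∈ Y) (e : π (g * y * g⁻¹) = π y') :
    g * y * g⁻¹ ∈ Y := by
  obtain ⟨k, hk⟩ := h.pg ⟨y, hy⟩
  refine zpowers_le.1 (h.le_Y (isPGroup_zpowers (k := k) ?_) (zpowers_le.2 ?_))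
  · rw [conj_pow, show y ^ 2 ^ k = 1 from congrArg Subtype.val hk, mul_one, mul_inv_cancel]
  · rw [← mul_inv_cancel_left y' (g * y * g⁻¹)]
    exact mul_mem (le_normalizer hy') (h.kN (by rw [map_mul, map_inv, e, inv_mul_cancel]))

theorem notF {y : G} (hy : y ∈ Y) (hf : π y ∈ F) : π y = 1 := by
  obtain ⟨k, hk⟩ := h.pg ⟨y, hy⟩
  have : π y ^ 2 ^ k = 1 := by
    rw [← map_pow, show y ^ 2 ^ k = 1 from congrArg Subtype.val hk, map_one]
  exact orderOf_eq_one_iff.1 (((H6.odd_orderOf h.odd hf).coprime_two_right.pow_right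
    k).eq_one_of_dvd (orderOf_dvd_of_pow_eq_one this))

theorem fix {t : X} {w y : G} (ht : T t w) (hc : Commute (π y) t) : y * w * y⁻¹ = w := by
  have := h.conj y ht
  rw [hc.eq, mul_inv_cancel_right] at this
  exact h.uniq this ht

theorem ne_inv {f : X} (hf : f ∈ F) (f1 : f ≠ 1) : f ≠ f⁻¹ := fun e => f1 (orderOf_eq_one_iff.1
  ((H6.odd_orderOf h.odd hf).coprime_two_right.eq_one_of_dvd (orderOf_dvd_of_pow_eq_one (by
    rw [pow_two]; exact mul_eq_one_iff_eq_inv.2 e))))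

variable {t w : G} (ht : T (π t) w)
include ht

theorem w1 {f : G} (hf : π f ∈ F) (f1 : π f ≠ 1) (e : π t * π f * (π t)⁻¹ = (π f)⁻¹) :
    T (π t * π f) (f * w * f⁻¹) ∧ t * (f * w * f⁻¹) * t⁻¹ = f * w * f⁻¹ * w := by
  have h1 := h.conj f ht
  have h2 : π f * π t * (π f)⁻¹ = π t * π f := by
    have c := h.cube ht hf e
    have : π f * π t = π t * (π f)⁻¹ := by
      rw [← eq_mul_inv_iff_mul_eq, ← conj_inv, e, inv_inv]
    rw [this, mul_assoc, mul_right_inj, ← mul_inv_rev, inv_eq_iff_mul_eq_one, ← c, pow_three']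
  rw [h2] at h1
  exact ⟨h1, h.tri ht hf f1 e h1⟩

variable (hY : t ∈ Y) {f : X} (hf : f ∈ F) (f1 : f ≠ 1) (e : π t * f * (π t)⁻¹ = f⁻¹)
include hY

section
include hf f1 e

theorem comm {s w' : G} (hs : s ∈ Y) (hw' : T (π s) w') :
    π s = π t ∨ (Commute (π s) (π t) ∧ Commute (π s) f) := by
  have key : ∀ x ∈ F, π s = π t * x → x = 1 := fun x hx e => by
    have : π (t⁻¹ * s) = x := by rw [map_mul, map_inv, e, inv_mul_cancel_left]
    exact this ▸ h.notF (mul_mem (inv_mem hY) hs) (this ▸ hx)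
  rcases h.dich ht hf f1 e hw' with (a | a | a) | a
  exacts [Or.inl a, absurd (key _ hf a) f1, absurd (inv_eq_one.1 (key _ (inv_mem hf) a)) f1,
    Or.inr a]

omit hY in
theorem norm_f {y : X} (hc : Commute y (π t)) : Commute y f ∨ y * f * y⁻¹ = f⁻¹ := by
  rcases h.three ht hf f1 e (h.nF.conj_mem f hf y) (by
    rw [conj_inv, ← e]
    calc _ = (π t * y) * f * (π t * y)⁻¹ := by group
      _ = _ := by rw [← hc.eq]; group) with a | a | a
  exacts [absurd (by simpa using a) f1, Or.inl (mul_inv_eq_iff_eq_mul.1 a), Or.inr a]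

end

theorem w_mem : w ∈ oz (bau Y) := by
  obtain ⟨f, hf, f1, e⟩ := h.ex ht
  have : thompsonSubgroupOf 2 Y ≤ (centralizer {π t}).comap π := J_le_iff.2 fun A hA =>
    map_le_iff_le_comap.1 ((h.gen A hA).trans ((closure_le _).2 (by
      rintro _ ⟨⟨s, hs, rfl⟩, w', hw'⟩
      refine mem_centralizer_singleton_iff.2 ?_
      rcases h.comm ht hY hf f1 e (hA.1 hs) hw' with a | a
      exacts [by rw [a], a.1])))
  rw [oz_bau]
  exact mem_oz_J (h.mem ht).1 (fun y hy => mul_inv_eq_iff_eq_mul.1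
    (h.fix ht (mem_centralizer_singleton_iff.1 (this hy)))) (h.mem ht).2.2.1

theorem B_comm {b : G} (hb : b ∈ bau Y) : Commute (π b) (π t) := by
  obtain ⟨f, hf, f1, e⟩ := h.ex ht
  have h1 := h.conj b ht
  rw [(h.w_mem ht hY).2.1 b hb, mul_inv_cancel_right, ← map_inv, ← map_mul, ← map_mul] at h1
  rcases h.comm ht hY hf f1 e (mul_mem (mul_mem (bau_le Y hb) hY) (inv_mem (bau_le Y hb))) h1 with
    a | a
  · rw [map_mul, map_mul, map_inv] at a
    exact mul_inv_eq_iff_eq_mul.1 a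
  · obtain ⟨f, rfl⟩ := h.surj f
    have := (h.w1 ht hf f1 e).2
    rw [h.fix h1 a.2.symm, (h.mem ht).2.2.1] at this
    exact absurd (by simpa using this) (h.mem ht).2.2.2

omit ht hY

theorem par_data {P : Subgroup G} (hP : Par (bau Y) P) : ∃ t w x, T (π t) w ∧ x ∈ P ∧
    x ∉ bau Y ∧ π x ∈ F ∧ π x ≠ 1 ∧ π t * π x * (π t)⁻¹ = (π x)⁻¹ ∧
    ⁅Zv P, bau Y⁆ = zpowers w := by
  obtain ⟨A, hA, hn⟩ := hP.off
  obtain ⟨t, htA, htQ, w, ht⟩ : ∃ t ∈ A, t ∉ pCoreOf 2 P ∧ ∃ w, T (π t) w := by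
    by_contra hc
    push Not at hc
    refine hn fun a ha => ?_
    obtain ⟨q, hq, e⟩ := ((h.gen A (elemMax_bau.1 hA)).trans ((closure_le
      ((A ⊓ pCoreOf 2 P).map π)).2 (by
        rintro _ ⟨⟨s, hs, rfl⟩, w', hw'⟩
        exact mem_map_of_mem π (mem_inf.2 ⟨hs, by_contra fun e => hc s hs e w' hw'⟩))))
      (mem_map_of_mem π ha)
    have c := hA.1 (mul_mem (inv_mem (mem_inf.1 hq).1) ha)
    rw [← mul_inv_cancel_left q a]
    exact mul_mem (mem_inf.1 hq).2 (inf_pCoreOf_le le_top (mem_inf.2 ⟨h.kerQ (mem_inf.2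
      ⟨bau_le Y c, by rw [MonoidHom.mem_ker, map_mul, map_inv, e, inv_mul_cancel]⟩), hP.le c⟩))
  have htB := hA.1 htA
  obtain ⟨k, hk, hk'⟩ := hP.exists_notMem
  obtain ⟨f, hf, f1, e⟩ := h.ex ht
  have h1 := h.conj k ht
  rw [← map_inv, ← map_mul, ← map_mul] at h1
  have hs : k * t * k⁻¹ ∈ P := mul_mem (mul_mem hk (hP.le htB)) (inv_mem hk)
  have hs' : k * t * k⁻¹ ∉ bau Y := fun c => htQ (by
    have := conj_mem_of_le_normalizer' (le_normalizer_pCoreOf 2 P) hk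
      (hP.inf_conj hk hk' ▸ mem_inf.2 ⟨c, conj_mem_conj_smul htB⟩)
    rwa [show k⁻¹ * (k * t * k⁻¹) * k = t by group] at this)
  obtain ⟨s, hsd⟩ : ∃ s, s = k * t * k⁻¹ := ⟨_, rfl⟩
  rw [← hsd] at h1 hs hs'
  have hnc : ¬ Commute (π s) (π t) := fun c => hs' (hP.mem_of_norm hs (by
    have c1 : ⁅s, t⁆ ∈ bau Y := hP.mem_of_norm (mul_mem (mul_mem (mul_mem hs (hP.le htB))
      (inv_mem hs)) (inv_mem (hP.le htB)))
      (norm_le_norm_bau Y (h.kN (by
        rw [map_commutatorElement]; exact commutatorElement_eq_one_iff_commute.2 c)))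
    refine mem_normalizer_of_conj_smul_le ?_
    nth_rewrite 1 [← sup_zpowers_eq_of_relIndex_prime Nat.prime_two hP.Q_le hP.i2 htB htQ]
    rw [smul_sup, mem_normalizer_iff_conj_smul.1 (le_normalizer_pCoreOf 2 P hs)]
    exact sup_le hP.Q_le (conj_zpowers_le.2 (by
      simpa [commutatorElement_def] using mul_mem c1 htB))))
  have key : π (t⁻¹ * s) ∈ F ∧ π (t⁻¹ * s) ≠ 1 ∧
      π t * π (t⁻¹ * s) * (π t)⁻¹ = (π (t⁻¹ * s))⁻¹ := by
    rw [map_mul, map_inv]
    rcases h.dich ht hf f1 e h1 with (a | a | a) | a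
    · exact absurd (a ▸ Commute.refl _) hnc
    · rw [a, inv_mul_cancel_left]; exact ⟨hf, f1, e⟩
    · rw [a, inv_mul_cancel_left]; exact ⟨inv_mem hf, inv_ne_one.2 f1, by rw [← conj_inv, e]⟩
    · exact absurd a.1 hnc
  have hx := mul_mem (inv_mem (hP.le htB)) hs
  refine ⟨t, w, _, ht, hx, fun c => hs' (by simpa using mul_mem htB c), key.1, key.2.1, key.2.2, ?_⟩
  have hw := hP.oz_le_Z (h.w_mem ht (bau_le Y htB))
  have hv := conj_mem_of_le_normalizer hP.norm_Z hx hw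
  have h2 := (h.w1 ht key.1 key.2.1 key.2.2).2
  obtain ⟨v, hvd⟩ : ∃ v, v = t⁻¹ * s * w * (t⁻¹ * s)⁻¹ := ⟨_, rfl⟩
  rw [← hvd] at hv h2
  have h3 : ⁅v, t⁆ = w := by
    rw [commutatorElement_def, mul_assoc, mul_assoc, ← mul_assoc t, ← conj_inv, h2, hw.2.1 v hv.1,
      mul_inv_rev, mul_inv_cancel_left, inv_eq_of_mul_eq_one_right hw.2.2]
  exact h3 ▸ (hP.gen_of hv htB (h3 ▸ (h.mem ht).2.2.2)).comm_eq

theorem norm_VP {P P' : Subgroup G} (hP : Par (bau Y) P) (hP' : Par (bau Y) P') :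
    P' ≤ normalizer (VP (bau Y) P : Set G) := by
  obtain ⟨-, -, x', -, h1, h2, h3, -⟩ := h.par_data hP'
  refine hP'.gen (zpowers_le.2 h1) (fun e => h2 (e (mem_zpowers _)))
    (hP.le.trans (le_normalizer_nclIn _ _)) (zpowers_le.2 ?_)
  obtain ⟨t, w, x, ht, hx, -, hf, f1, e, hw⟩ := h.par_data hP
  have hw' : w ∈ VP (bau Y) P := le_nclIn _ _ (hw ▸ mem_zpowers w)
  have hn := le_normalizer_nclIn P ⁅Zv P, bau Y⁆
  have key : ∀ y, π y ∈ F → y * w * y⁻¹ ∈ VP (bau Y) P := fun y hy => by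
    obtain ⟨i, hi, e1, e2⟩ := h.conj_eq ht hy
    have := h.conj y ht
    rw [e2] at this
    rcases h.three ht hf f1 e hi e1 with rfl | rfl | rfl
    · rw [mul_one] at this
      exact h.uniq ht this ▸ hw'
    · exact h.uniq (h.w1 ht hf f1 e).1 this ▸ conj_mem_of_le_normalizer hn hx hw'
    · rw [← map_inv] at this hi e1
      exact h.uniq (h.w1 ht hi (by rwa [map_inv, inv_ne_one]) e1).1 this ▸
        conj_mem_of_le_normalizer hn (inv_mem hx) hw'
  refine mem_normalizer_of_conj_smul_le (conj_smul_le_iff.2 (nclIn_le_iff.2 fun p hp => ?_))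
  rw [hw, conj_zpowers_le, mem_conj_smul, inv_inv]
  have := conj_mem_of_le_normalizer hn hp (key (p⁻¹ * x' * p) (by
    rw [map_mul, map_mul, map_inv]; exact h.nF.conj_mem' _ h3 _))
  simpa [mul_assoc, VP] using this

end Sys

end Cfsg.Agent.H2.AM
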