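import Cfsg.Agent.H2.Amal4

/-!
Generation by minimal parabolics over the Baumann subgroup.
-/

set_option autoImplicit false
set_option linter.unusedSectionVars false

namespace Cfsg.Agent.H2.AM

open Subgroup Cfsg H1
open scoped commutatorElement Pointwise

variable {G : Type*} [Group G] [Finite G]

theorem par_of {B B₀ A : Subgroup G} {t g : G} (hB : IsPGroup 2 B) (h0 : B₀ ≤ B)
    (hi : B₀.relIndex B = 2) (hA : A ∈ H5.elemMax 2 B) (ht : t ∈ A) (ht' : t ∉ B₀)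
    (htn : t ∈ normalizer (B₀ : Set G)) (h3 : g ^ 3 = 1) (hg : g ∉ B)
    (hgn : g ∈ normalizer (B₀ : Set G)) (e : t * g * t⁻¹ = g⁻¹) (hz : oz B ≤ B₀)
    (hc : g ∉ centralizer (oz B : Set G)) : Par B (B ⊔ zpowers g) := by
  have htB := hA.1 ht
  have hs := sup_zpowers_eq_of_relIndex_prime Nat.prime_two h0 hi htB ht'
  have hgn' := zpowers_le.2 hgn
  have i3 : B₀.relIndex (zpowers g ⊔ B₀) = 3 := by
    rw [relIndex_sup_of_le_normalizer hgn']
    refine (Nat.prime_three.eq_one_or_self_of_dvd _ ((relIndex_dvd_card _ _).trans ?_)).resolve_left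
      fun c => hg (h0 (relIndex_eq_one.1 c (mem_zpowers g)))
    rw [Nat.card_zpowers]
    exact orderOf_dvd_of_pow_eq_one h3
  have hn : B ≤ normalizer ((zpowers g ⊔ B₀ : Subgroup G) : Set G) := by
    rw [← hs]
    refine sup_le (le_sup_right.trans le_normalizer) (le_normalizer_sup (zpowers_le.2
      (mem_normalizer_of_conj_smul_le (conj_zpowers_le.2 ?_))) (zpowers_le.2 htn))
    rw [e]; exact inv_mem (mem_zpowers g)
  have e1 : B ⊔ zpowers g = B ⊔ (zpowers g ⊔ B₀) := by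
    rw [← sup_assoc, sup_right_comm, sup_eq_left.2 h0]
  have j3 : B.relIndex (B ⊔ zpowers g) = 3 := by
    have c1 := card_sup_eq_mul_relIndex hn
    rw [← e1, ← card_mul_relIndex (le_sup_left : B ≤ B ⊔ zpowers g), ← inf_relIndex_right B (_ ⊔ B₀),
      eq_of_relIndex_prime Nat.prime_three (le_inf h0 le_sup_right) inf_le_right i3 fun c =>
        hg ((le_sup_left.trans (c.trans inf_le_left)) (mem_zpowers g)), i3] at c1
    exact Nat.eq_of_mul_eq_mul_left Nat.card_pos c1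
  have nB : ¬ B ⊔ zpowers g ≤ normalizer (B : Set G) := fun c => hg (by
    have := mul_mem (conj_mem_of_le_normalizer c (mem_sup_right (mem_zpowers g)) htB) (inv_mem htB)
    rw [mul_assoc, mul_assoc, ← mul_assoc t, ← conj_inv, e, inv_inv] at this
    have := mul_mem this this
    rwa [← mul_assoc, ← pow_three', h3, one_mul] at this)
  have hO : pCoreOf 2 (B ⊔ zpowers g) = B₀ := eq_of_relIndex_prime Nat.prime_two
    ((SnIn.of_normal (h0.trans le_sup_left) (sup_le (hs.ge.trans (sup_le le_normalizer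
      (zpowers_le.2 htn))) hgn')).le_pCoreOf (hB.to_le h0))
    (pCoreOf_le_of_sylow le_sup_left hB (by rw [j3]; norm_num)) hi fun c => nB (by
      rw [le_antisymm c (pCoreOf_le_of_sylow le_sup_left hB (by rw [j3]; norm_num))]
      nth_rewrite 1 [← le_antisymm c (pCoreOf_le_of_sylow le_sup_left hB (by rw [j3]; norm_num))]
      exact le_normalizer_pCoreOf 2 _)
  exact ⟨hB, le_sup_left, j3, hO ▸ hi, nB, hO ▸ hz, fun c => hc (c (mem_sup_right (mem_zpowers g))),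
    A, hA, fun c => ht' (hO ▸ c ht)⟩

namespace Sys

variable {Y : Subgroup G} {X : Type*} [Group X] [Finite X] {π : G →* X} {F : Subgroup X}
  {T : X → G → Prop} (h : Sys Y π F T)
include h

theorem exists_par {A : Subgroup G} (hA : A ∈ H5.elemMax 2 Y) {t w : G} (htA : t ∈ A)
    (ht : T (π t) w) {f : X} (hf : f ∈ F) (f1 : f ≠ 1) (e : π t * f * (π t)⁻¹ = f⁻¹) :
    ∃ P, Par (bau Y) P ∧ ∃ g ∈ P, π g = f ∨ π g = f⁻¹ := by
  obtain ⟨f, rfl⟩ := h.surj f
  have hY := hA.1 htA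
  have hAB := (elemMax_bau.2 hA).1
  obtain ⟨Y₀, hY₀⟩ : ∃ Y₀, Y₀ = Y ⊓ (centralizer {π f}).comap π := ⟨_, rfl⟩
  have mem0 : ∀ {y}, y ∈ Y₀ ↔ y ∈ Y ∧ Commute (π y) (π f) := fun {y} => by
    rw [hY₀, mem_inf, mem_comap, mem_centralizer_singleton_iff]; rfl
  have hY0 : Y₀ ≤ Y := hY₀ ▸ inf_le_left
  have ninv : ∀ {y}, π y * π f * (π y)⁻¹ = (π f)⁻¹ → ¬ Commute (π y) (π f) := fun a c => by
    rw [c.eq, mul_inv_cancel_right] at a
    exact h.ne_inv hf f1 a
  have ht0 : t ∉ Y₀ := fun c => ninv e (mem0.1 c).2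
  have idx : ∀ K ≤ bau Y, t ∈ K → Y₀.relIndex K = 2 := fun K hK htK =>
    relIndex_eq_two_iff.2 ⟨t, htK, fun b hb => by
      have hb' := bau_le Y (hK hb)
      rcases h.norm_f ht hf f1 e (h.B_comm ht hY (hK hb)) with a | a
      · exact Or.inr ⟨mem0.2 ⟨hb', a⟩, fun c => ht0
          ((Subgroup.mul_mem_cancel_left _ (mem0.2 ⟨hb', a⟩)).1 c)⟩
      · refine Or.inl ⟨mem0.2 ⟨mul_mem hb' hY, mul_inv_eq_iff_eq_mul.1 ?_⟩, fun c =>
          ninv a (mem0.1 c).2⟩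
        rw [map_mul, mul_inv_rev, mul_assoc (π b), mul_assoc (π b), ← mul_assoc (π t * π f), e,
          ← mul_assoc, ← conj_inv, a, inv_inv]⟩
  have hfn : f ∈ normalizer (Y₀ : Set G) := mem_normalizer_fintype fun y hy => by
    obtain ⟨a, b⟩ := mem0.1 hy
    have : π (f * y * f⁻¹) = π y := by rw [map_mul, map_mul, map_inv, ← b.eq, mul_inv_cancel_right]
    exact mem0.2 ⟨h.conj_mem a a this, this ▸ b⟩
  have htn : t ∈ normalizer (Y₀ : Set G) := mem_normalizer_fintype fun y hy => by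
    obtain ⟨a, b⟩ := mem0.1 hy
    refine mem0.2 ⟨mul_mem (mul_mem hY a) (inv_mem hY), ?_⟩
    have := b.inv_right.conj (π t)
    rwa [← conj_inv, e, inv_inv, ← map_inv, ← map_mul, ← map_mul] at this
  obtain ⟨h1, h2⟩ := h.w1 ht hf f1 e
  obtain ⟨v, hv⟩ : ∃ v, v = f * w * f⁻¹ := ⟨_, rfl⟩
  rw [← hv] at h1 h2
  have hv0 : v ∈ oz Y₀ := ⟨mem0.2 ⟨(h.mem h1).1, by rw [(h.mem h1).2.1]; exact Commute.one_left _⟩,
    fun y hy => mul_inv_eq_iff_eq_mul.1 (h.fix h1 (by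
      obtain ⟨a, b⟩ := mem0.1 hy
      refine Commute.mul_right ?_ b
      have c := h.conj y ht
      rw [← map_inv, ← map_mul, ← map_mul] at c
      rcases h.comm ht hY hf f1 e (mul_mem (mul_mem a hY) (inv_mem a)) c with d | d
      · rw [map_mul, map_mul, map_inv] at d
        exact mul_inv_eq_iff_eq_mul.1 d
      · refine absurd ?_ (ninv e)
        have := (b.inv_left.mul_left d.2).mul_left b
        simpa [mul_assoc] using this)), (h.mem h1).2.2.1⟩
  have hvA : v ∉ A := fun c => (h.mem ht).2.2.2 (by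
    rw [le_centralizer_of_comm hA.2.1.1 c t htA, mul_inv_cancel_right] at h2
    simpa using h2)
  have hA1 := sup_mem_elemMax hA (inf_le_left : A ⊓ Y₀ ≤ A) ((oz_le _).trans hY0) (oz_elemAb Y₀)
    (inf_le_right.trans (le_cent_oz _)) (by rw [inf_relIndex_left, idx A hAB htA])
    fun c => hvA (c hv0).1
  have hA10 : A ⊓ Y₀ ⊔ oz Y₀ ≤ Y₀ := sup_le inf_le_right (oz_le _)
  have hA1J := H5.le_thompsonSubgroupOf (H5.mem_elemMax_of_le hY0 hA1 hA10)
  obtain ⟨U, hU⟩ : ∃ U, U = oz (thompsonSubgroupOf 2 Y₀) := ⟨_, rfl⟩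
  have hU0 : U ≤ Y₀ := hU ▸ (oz_le _).trans (H5.thompsonSubgroupOf_le _)
  have hWU : oz Y₀ ≤ U := hU ▸ oz_le_oz_J Y₀
  have hBU : oz (bau Y) ≤ U := by
    rw [hU, oz_bau]
    exact fun x hx => ⟨hA1J (mem_of_elemMax hA1 (H5.thompsonSubgroupOf_le _ hx.1) (centralizer_le
      (H5.le_thompsonSubgroupOf hA1) hx.2.1) hx.2.2), centralizer_le (J_le_iff.2 fun D hD =>
      H5.le_thompsonSubgroupOf (elemMax_of_le hA1 hY0 hA10 hD)) hx.2.1, hx.2.2⟩
  have iU : (A ⊓ Y₀).relIndex U = 2 := by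
    have c1 := relIndex_le_of_elemMax hA (inf_le_left : A ⊓ Y₀ ≤ A) (hU0.trans hY0)
      (hU ▸ oz_elemAb _) (hU ▸ (le_sup_left.trans hA1J).trans (le_cent_oz _))
    rw [inf_relIndex_left, idx A hAB htA] at c1
    have c2 := relIndex_pos (A ⊓ Y₀) U
    have c3 : (A ⊓ Y₀).relIndex U ≠ 1 := fun c => hvA (relIndex_eq_one.1 c (hWU hv0)).1
    omega
  have cU : ∀ u ∈ U, u⁻¹ * (t * u * t⁻¹) ∈ oz Y₀ := fun u hu => by
    have fx : ∀ a ∈ A ⊓ Y₀, t * a * t⁻¹ = a := fun a ha => by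
      rw [le_centralizer_of_comm hA.2.1.1 ha.1 t htA, mul_inv_cancel_right]
    by_cases c : u ∈ A ⊓ Y₀
    · rw [fx u c, inv_mul_cancel]; exact one_mem _
    have := fx _ (mul_mem_two iU hu (hWU hv0) c fun d => hvA d.1)
    rw [show u⁻¹ * (t * u * t⁻¹) = u⁻¹ * (t * (u * v) * t⁻¹) * (t * v⁻¹ * t⁻¹) by group, this,
      inv_mul_cancel_left]
    exact mul_mem hv0 (conj_mem_of_le_normalizer (norm_le_norm_oz _) htn (inv_mem hv0))
  obtain ⟨s, hs⟩ : ∃ s, s = f * t * f⁻¹ := ⟨_, rfl⟩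
  have eB : bau Y ⊓ Y₀ = Y₀ ⊓ centralizer ((oz (bau Y) ⊔ oz Y₀ : Subgroup G) : Set G) :=
    le_antisymm (le_inf inf_le_right (le_centralizer_iff.1 (sup_le
      ((oz_le_cent _).trans (centralizer_le inf_le_left))
      ((oz_le_cent _).trans (centralizer_le inf_le_right))))) fun x hx =>
      ⟨⟨hY0 hx.1, oz_bau Y ▸ centralizer_le (le_sup_left : oz (bau Y) ≤ _ ⊔ oz Y₀) hx.2⟩, hx.1⟩
  have hsn : s ∈ normalizer ((bau Y ⊓ Y₀ : Subgroup G) : Set G) := by
    rw [eB, ← zpowers_le]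
    refine le_normalizer_inf (zpowers_le.2 (hs ▸ mul_mem (mul_mem hfn htn) (inv_mem hfn)))
      (le_normalizer_centralizer (zpowers_le.2 (mem_normalizer_fintype fun u hu => ?_)))
    have hfU : normalizer (Y₀ : Set G) ≤ normalizer (U : Set G) :=
      hU ▸ (H5.normalizer_le_normalizer_thompsonSubgroupOf _).trans (norm_le_norm_oz _)
    have := conj_mem_of_le_normalizer (norm_le_norm_oz _) hfn
      (cU _ (conj_mem_of_le_normalizer' hfU hfn (sup_le hBU hWU hu)))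
    have := mul_mem hu (mem_sup_right this : _ ∈ oz (bau Y) ⊔ oz Y₀)
    rw [hs]
    refine (congrArg (· ∈ oz (bau Y) ⊔ oz Y₀) ?_).mp this
    group
  have htn' : t ∈ normalizer ((bau Y ⊓ Y₀ : Subgroup G) : Set G) :=
    zpowers_le.1 (le_normalizer_inf ((zpowers_le.2 (hAB htA)).trans le_normalizer)
      (zpowers_le.2 htn))
  have t2 : t * t = 1 := (pow_two t).symm.trans (hA.2.1.2 t htA)
  have s2 : s * s = 1 := by rw [hs, conj_mul, t2, mul_one, mul_inv_cancel]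
  have ex : t * (t * s) * t⁻¹ = (t * s)⁻¹ := by
    rw [← mul_assoc, t2, one_mul, mul_inv_rev, inv_eq_of_mul_eq_one_right s2]
  have px : π (t * s) = π f := by
    have c := h.cube ht hf e
    have : π f * π t = π t * (π f)⁻¹ := by
      rw [← eq_mul_inv_iff_mul_eq, ← conj_inv, e, inv_inv]
    rw [hs, map_mul, map_mul, map_mul, map_inv, this, ← mul_assoc, ← mul_assoc, h.sq ht, one_mul,
      ← mul_inv_rev, inv_eq_iff_mul_eq_one, ← c, pow_three']
  have hxn := mul_mem htn' hsn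
  obtain ⟨x, hx⟩ : ∃ x, x = t * s := ⟨_, rfl⟩
  rw [← hx] at ex px hxn
  obtain ⟨k, hk⟩ : ∃ k, (x ^ 3 * x ^ 3) ^ 2 ^ k = 1 := by
    have := mul_mem (conj_mem_of_le_normalizer le_rfl (h.kN (c := x ^ 3) (by
      rw [map_pow, px, h.cube ht hf e])) hY) (inv_mem hY)
    rw [mul_assoc, mul_assoc, ← mul_assoc t, ← inv_pow, ← conj_pow, ← conj_inv, ex, inv_inv] at this
    obtain ⟨k, hk⟩ := h.pg ⟨_, this⟩
    exact ⟨k, congrArg Subtype.val hk⟩
  have eg : t * x ^ 2 ^ (k + 1) * t⁻¹ = (x ^ 2 ^ (k + 1))⁻¹ := by rw [← conj_pow, ex, inv_pow]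
  have g1 : π (x ^ 2 ^ (k + 1)) ≠ 1 := fun c => f1 (orderOf_eq_one_iff.1
    (((H6.odd_orderOf h.odd hf).coprime_two_right.pow_right (k + 1)).eq_one_of_dvd
      (orderOf_dvd_of_pow_eq_one (by rwa [map_pow, px] at c))))
  have gF : π (x ^ 2 ^ (k + 1)) ∈ F := by rw [map_pow, px]; exact pow_mem hf _
  have g3 : (x ^ 2 ^ (k + 1)) ^ 3 = 1 := by
    rw [← hk, ← pow_add, ← pow_mul, ← pow_mul]; congr 1; ring
  have gn := pow_mem hxn (2 ^ (k + 1))
  obtain ⟨g, hg⟩ : ∃ g, g = x ^ 2 ^ (k + 1) := ⟨_, rfl⟩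
  rw [← hg] at eg g1 gF g3 gn
  have eg' : π t * π g * (π t)⁻¹ = (π g)⁻¹ := by
    rw [← map_inv, ← map_mul, ← map_mul, eg, map_inv]
  refine ⟨_, par_of (h.pg.to_le (bau_le Y)) inf_le_left (by
    rw [inf_relIndex_left, idx _ le_rfl (hAB htA)]) (elemMax_bau.2 hA) htA (fun c => ht0 c.2) htn' g3
    (fun c => g1 (h.notF (bau_le Y c) gF)) gn eg (le_inf (oz_le _) (hBU.trans hU0)) fun c => ?_,
    g, mem_sup_right (mem_zpowers g), (h.three ht hf f1 e gF eg').resolve_left g1⟩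
  have := (h.w1 ht gF g1 eg').2
  rw [← c w (h.w_mem ht hY), mul_inv_cancel_right, (h.mem ht).2.2.1] at this
  exact (h.mem ht).2.2.2 (by simpa using this)

theorem eq_top {M : Subgroup G} (hN : normalizer (bau Y : Set G) ≤ M)
    (hP : ∀ P, Par (bau Y) P → P ≤ M) : M = ⊤ := by
  have hNY := (norm_le_norm_bau Y).trans hN
  have hYM : Y ≤ M := le_normalizer.trans hNY
  have hJ : ∀ x, MulAut.conj x • thompsonSubgroupOf 2 Y ≤ M → x ∈ M := fun x hx => by
    obtain ⟨m, hm, e⟩ := exists_conj_le_sylow h.pg (fun e => h.idx (e.trans (by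
      rw [relIndex_top_right]; exact relIndex_dvd_index_of_le hYM))) hx
      ((h.pg.to_le (H5.thompsonSubgroupOf_le Y)).map (MulAut.conj x).toMonoidHom)
    rw [map_conj_eq_smul, ← conj_smul_mul] at e
    have e1 : m * x ∈ normalizer (thompsonSubgroupOf 2 Y : Set G) :=
      mem_normalizer_of_conj_smul_le (conj_smul_le_iff.2 (J_le_iff.2 fun A hA =>
        conj_smul_le_iff.1 (H5.le_thompsonSubgroupOf ⟨(conj_smul_mono _
          (H5.le_thompsonSubgroupOf hA)).trans e, elemAb_conj_smul hA.2.1 _,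
          fun E a b => (hA.2.2 E a b).trans (card_conj_smul _ _).ge⟩)))
    have e2 : MulAut.conj (m * x) • bau Y ≤ centralizer (oz (thompsonSubgroupOf 2 Y) : Set G) :=
      (conj_smul_mono _ inf_le_right).trans (mem_normalizer_iff_conj_smul.1
        (normalizer_le_normalizer_centralizer _ (norm_le_norm_oz _ e1))).le
    exact (Subgroup.mul_mem_cancel_left _ hm).1 (hN (mem_normalizer_of_conj_smul_le (le_inf
      (h.le_Y ((h.pg.to_le (bau_le Y)).map (MulAut.conj (m * x)).toMonoidHom)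
        ((e2.trans (centralizer_le (oz_le_oz_J Y))).trans h.cz)) e2)))
  have hx : ∀ x, (∀ A ∈ H5.elemMax 2 Y, ∀ t ∈ A, ∀ w, T (π t) w →
      π x * π t * (π x)⁻¹ ∈ M.map π) → x ∈ M := fun x hx => by
    refine hJ x (conj_smul_le_iff.2 (J_le_iff.2 fun A hA a ha => ?_))
    obtain ⟨m, hm, e⟩ := mem_conj_smul.1 (((h.gen A hA).trans ((closure_le
      (MulAut.conj (π x)⁻¹ • M.map π)).2 (by
        rintro _ ⟨⟨s, hs, rfl⟩, w', hw'⟩
        exact mem_conj_smul.2 (by rw [inv_inv]; exact hx A hA s hs w' hw')))) (mem_map_of_mem π ha))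
    rw [mem_conj_smul, ← mul_inv_cancel_left m (x⁻¹⁻¹ * a * x⁻¹)]
    exact mul_mem hm (hNY (h.kN (by simp [e, mul_assoc])))
  have hF : F ≤ M.map π := fun y hy => by
    obtain ⟨x, rfl⟩ := h.surj y
    refine mem_map_of_mem π (hx x fun A hA t htA w ht => ?_)
    obtain ⟨f, hf, f1, e⟩ := h.ex ht
    obtain ⟨P, c1, g, hg, c2⟩ := h.exists_par hA htA ht hf f1 e
    have c3 := mem_map_of_mem π (hP P c1 hg)
    have c4 : f ∈ M.map π := c2.elim (fun c => c ▸ c3) fun c => inv_mem_iff.1 (c ▸ c3)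
    obtain ⟨i, hi, e1, e2⟩ := h.conj_eq ht hy
    rw [e2]
    refine mul_mem (mem_map_of_mem π (hYM (hA.1 htA))) ?_
    rcases h.three ht hf f1 e hi e1 with rfl | rfl | rfl
    exacts [one_mem _, c4, inv_mem c4]
  haveI := h.nF
  obtain ⟨σ, hσ⟩ : ∃ σ, σ = QuotientGroup.mk' F := ⟨_, rfl⟩
  have hσs : Function.Surjective σ := hσ ▸ QuotientGroup.mk'_surjective F
  have hσ1 : ∀ {x}, σ x = 1 ↔ x ∈ F := fun {x} => hσ ▸ QuotientGroup.eq_one_iff x
  obtain ⟨S, hS⟩ : ∃ S, S = σ '' {t | ∃ w, T t w} := ⟨_, rfl⟩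
  have h1 : closure S ≤ oz (closure S) := (closure_le _).2 fun x hx =>
    ⟨Subgroup.subset_closure hx, by
      rw [centralizer_closure]
      subst hS
      obtain ⟨t, ⟨w, ht⟩, rfl⟩ := hx
      rintro _ ⟨s, ⟨w', hs⟩, rfl⟩
      obtain ⟨f, hf, f1, e⟩ := h.ex ht
      rcases h.dich ht hf f1 e hs with (a | a | a) | a
      · rw [a]
      · rw [a, map_mul, hσ1.2 hf, mul_one]
      · rw [a, map_mul, hσ1.2 (inv_mem hf), mul_one]
      · exact (a.1.map σ).eq, by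
      subst hS
      obtain ⟨t, ⟨w, ht⟩, rfl⟩ := hx
      rw [← map_mul, h.sq ht, map_one]⟩
  have h2 : closure S ≤ (Y.map π).map σ := ((SnIn.of_normal le_top fun y _ =>
    mem_normalizer_of_conj_smul_le (conj_smul_le_iff.2 ((closure_le _).2 fun x hx => by
      subst hS
      obtain ⟨t, ⟨w, ht⟩, rfl⟩ := hx
      obtain ⟨y, rfl⟩ := (hσs.comp h.surj) y
      exact mem_conj_smul.2 (Subgroup.subset_closure ⟨_, ⟨_, h.conj y ht⟩, by simp⟩)))).le_pCoreOf
    (L.IsElementaryAbelian.isPGroup (H5.elemAb_mono h1 (oz_elemAb _)))).trans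
    (pCoreOf_le_of_sylow le_top ((h.pg.map π).map σ) fun e => h.idx (e.trans (by
      rw [relIndex_top_right, relIndex_top_right]
      exact (index_map_dvd _ hσs).trans (index_map_dvd _ h.surj))))
  refine eq_top_iff.2 fun x _ => hx x fun A _ t _ w ht => ?_
  obtain ⟨y, hy, e⟩ := h2 (Subgroup.subset_closure (hS.ge ⟨_, ⟨_, h.conj x ht⟩, rfl⟩))
  rw [← mul_inv_cancel_left y (π x * π t * (π x)⁻¹)]
  exact mul_mem (map_mono hYM hy) (hF (hσ1.1 (by rw [map_mul, map_inv, e, inv_mul_cancel])))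

end Sys

end Cfsg.Agent.H2.AM
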