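import Cfsg.Agent.H2.Amal5

/-!
From a `ZN`-group of characteristic two type to an amalgam.
-/

set_option autoImplicit false
set_option linter.unusedSectionVars false

namespace Cfsg.Agent.H2.AM

open Subgroup Cfsg H1
open scoped commutatorElement Pointwise

variable {G : Type*} [Group G] [Finite G]

theorem locA {H Y : Subgroup G} (hs : Group.IsSolvable H)
    (hc : H ⊓ centralizer (pCoreOf 2 H : Set G) ≤ pCoreOf 2 H) (hYH : Y ≤ H) (hY : IsPGroup 2 Y)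
    (hi : ¬ 2 ∣ Y.relIndex H) (hz : H ⊓ centralizer (oz Y : Set G) ≤ normalizer (Y : Set G)) :
    (∀ M, normalizer (bau Y : Set G) ≤ M → (∀ P ≤ H, Par (bau Y) P → P ≤ M) → H ≤ M) ∧
    ∀ P ≤ H, ∀ P' ≤ H, Par (bau Y) P → Par (bau Y) P' → P' ≤ normalizer (VP (bau Y) P : Set G) := by
  have hf := H.subtype_injective
  have hH : (⊤ : Subgroup H).map H.subtype = H :=
    (MonoidHom.range_eq_map _).symm.trans H.range_subtype
  obtain ⟨Y, rfl⟩ : ∃ Y' : Subgroup H, Y = Y'.map H.subtype := ⟨_, (map_subgroupOf_eq_of_le hYH).symm⟩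
  obtain ⟨N, _, F, T, h⟩ := exists_sys (Y := Y) ((isPGroup_map_iff hf).1 hY)
    (by rwa [← relIndex_map_map_of_injective _ _ hf, hH]) (fun x hx => by
      have := pCoreOf_map hf 2 ⊤
      rw [hH] at this
      rw [this] at hc
      exact (mem_map_iff_mem hf).1 (hc (mem_inf.2 ⟨x.2, (mem_cent_map hf).2 hx⟩))) fun x hx => by
      rw [oz_map hf] at hz
      exact zpowers_le.1 ((map_le_norm_iff hf).1 (by
        rw [MonoidHom.map_zpowers, zpowers_le]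
        exact hz (mem_inf.2 ⟨x.2, (mem_cent_map hf).2 hx⟩)))
  rw [bau_map hf]
  refine ⟨fun M h1 h2 => subgroupOf_eq_top.1 (h.eq_top (map_le_iff_le_comap.1
    (((map_le_norm_iff hf).2 le_rfl).trans h1)) fun P hP => map_le_iff_le_comap.1
      (h2 _ (map_subtype_le P) ((par_map_iff hf).2 hP))), fun P h1 P' h2 h3 h4 => ?_⟩
  rw [← map_subgroupOf_eq_of_le h1] at h3 ⊢
  rw [← map_subgroupOf_eq_of_le h2] at h4 ⊢
  rw [VP_map hf, map_le_norm_iff hf]
  exact h.norm_VP ((par_map_iff hf).1 h3) ((par_map_iff hf).1 h4)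

variable (G) in
/-- `ZN`-groups of characteristic two type. -/
structure ZN : Prop where
  solv : ∀ U : Subgroup G, IsPGroup 2 U → U ≠ ⊥ → Group.IsSolvable (normalizer (U : Set G))
  ch : ∀ U : Subgroup G, IsPGroup 2 U → U ≠ ⊥ → normalizer (U : Set G) ⊓
    centralizer (pCoreOf 2 (normalizer (U : Set G)) : Set G) ≤ pCoreOf 2 (normalizer (U : Set G))
  cz : ∀ S : Subgroup G, IsPGroup 2 S → ¬ 2 ∣ S.relIndex ⊤ →
    centralizer (oz S : Set G) ≤ normalizer (S : Set G)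
  triv : pCoreOf 2 (⊤ : Subgroup G) = ⊥

/-- Maximal `2`-local subgroups. -/
def ML (H : Subgroup G) : Prop := pCoreOf 2 H ≠ ⊥ ∧ ∀ K, H ≤ K → pCoreOf 2 K ≠ ⊥ → K = H

theorem le_pCoreOf_norm {U : Subgroup G} (hU : IsPGroup 2 U) :
    U ≤ pCoreOf 2 (normalizer (U : Set G)) :=
  (SnIn.of_normal le_normalizer le_rfl).le_pCoreOf hU

theorem exists_ML {U : Subgroup G} (hU : IsPGroup 2 U) (h0 : U ≠ ⊥) :
    ∃ H, ML H ∧ normalizer (U : Set G) ≤ H := by
  obtain ⟨H, h1, h2⟩ := Finite.exists_le_maximal (p := fun K : Subgroup G => pCoreOf 2 K ≠ ⊥)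
    (a := normalizer (U : Set G)) fun e => h0 (eq_bot_iff.2 ((le_pCoreOf_norm hU).trans e.le))
  exact ⟨H, ⟨h2.1, fun K a b => le_antisymm (h2.2 b a) a⟩, h1⟩

theorem ML.norm {H : Subgroup G} (h : ML H) : normalizer (pCoreOf 2 H : Set G) = H :=
  h.2 _ (le_normalizer_pCoreOf 2 H) fun e =>
    h.1 (eq_bot_iff.2 ((le_pCoreOf_norm (isPGroup_pCoreOf 2 H)).trans e.le))

theorem ML.conj {H : Subgroup G} (h : ML H) (g : G) : ML (MulAut.conj g • H) := by
  have e : ∀ (K : Subgroup G) (g : G), pCoreOf 2 K ≠ ⊥ → pCoreOf 2 (MulAut.conj g • K) ≠ ⊥ :=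
    fun K g a b => a (by
      rw [← conj_smul_pCoreOf] at b
      rw [← conj_smul_inv_cancel (pCoreOf 2 K) g, b, Subgroup.smul_bot])
  refine ⟨e _ _ h.1, fun K a b => ?_⟩
  rw [← h.2 _ (conj_smul_le_iff.1 a) (e _ _ b), conj_smul_cancel_inv]

/-- `B` is the Baumann subgroup of each `2`-subgroup of `H` containing it. -/
def Good (B H : Subgroup G) : Prop := ∀ Y : Subgroup G, IsPGroup 2 Y → B ≤ Y → Y ≤ H → bau Y = B

theorem ZN.loc (h : ZN G) {B H : Subgroup G} (hH : ML H) (hg : Good B H) (hB : IsPGroup 2 B)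
    (hBH : B ≤ H) :
    (∀ M, normalizer (B : Set G) ≤ M → (∀ P ≤ H, Par B P → P ≤ M) → H ≤ M) ∧
    ∀ P ≤ H, ∀ P' ≤ H, Par B P → Par B P' → P' ≤ normalizer (VP B P : Set G) := by
  obtain ⟨Y, h1, h2, h3, h4⟩ := exists_sylow_of_le hBH hB
  have hc := h.ch _ (isPGroup_pCoreOf 2 H) hH.1
  have hs := h.solv _ (isPGroup_pCoreOf 2 H) hH.1
  rw [hH.norm] at hc hs
  rw [← hg Y h3 h1 h2]
  refine locA hs hc h2 h3 h4 ?_
  obtain ⟨S, a1, -, a2, a3⟩ := exists_sylow_of_le (le_top : Y ≤ ⊤) h3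
  have hQ := pCoreOf_le_of_sylow h2 h3 h4
  have hC := (oz_le_cent S).trans (centralizer_le (hQ.trans a1))
  have := oz_le_oz a1 ((le_inf (hC.trans ((centralizer_le_normalizer _).trans hH.norm.le))
    hC).trans (hc.trans hQ))
  have e : S ⊓ H = Y := sylow_maximal h4 (le_inf a1 h2) inf_le_right (a2.to_le inf_le_left)
  refine le_trans (le_normalizer_inf (inf_le_right.trans ((centralizer_le this).trans
    (h.cz S a2 a3))) (inf_le_left.trans le_normalizer)) ?_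
  rw [e]

/-- The chosen Baumann subgroup. -/
structure Top (B : Subgroup G) : Prop where
  pg : IsPGroup 2 B
  ne : B ≠ ⊥
  two : ∃ H₁ H₂, ML H₁ ∧ ML H₂ ∧ H₁ ≠ H₂ ∧ B ≤ H₁ ∧ B ≤ H₂
  good : ∀ M H, ML M → ML H → normalizer (B : Set G) ≤ M → H ≠ M → B ≤ H → Good B H

theorem exists_top (h : ∃ T : Subgroup G, IsPGroup 2 T ∧ T ≠ ⊥ ∧
    ∃ H₁ H₂, ML H₁ ∧ ML H₂ ∧ H₁ ≠ H₂ ∧ T ≤ H₁ ∧ T ≤ H₂) : ∃ B : Subgroup G, Top B := by
  choose A hA using fun T : Subgroup G => H5.exists_mem_elemMax 2 T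
  obtain ⟨T, ⟨h1, h2, H₁, H₂, h3, h4, h5, h6, h7⟩, hm⟩ := Set.exists_max_image _ (fun T =>
    toLex (Nat.card (A T), toLex (Nat.card (thompsonSubgroupOf 2 T), Nat.card (bau T))))
    (Set.toFinite _) h
  have h0 : bau T ≠ ⊥ := fun e => oz_ne_bot h1 h2 (eq_bot_iff.2
    (((oz_le_oz_J T).trans ((oz_le _).trans (J_le_bau T))).trans e.le))
  refine ⟨bau T, h1.to_le (bau_le T), h0, ⟨H₁, H₂, h3, h4, h5, (bau_le T).trans h6,
    (bau_le T).trans h7⟩, fun M H hM hH hN hne _ Y hY hBY hYH => ?_⟩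
  obtain ⟨Z, hZ⟩ : ∃ Z, Z = Y ⊓ normalizer (bau T : Set G) := ⟨_, rfl⟩
  have hZY : Z ≤ Y := hZ ▸ inf_le_left
  have hBZ : bau T ≤ Z := hZ ▸ le_inf hBY le_normalizer
  have key : bau Z = bau T := by
    have hJ := fun D (hD : D ∈ H5.elemMax 2 T) =>
      (H5.le_thompsonSubgroupOf hD).trans ((J_le_bau T).trans hBZ)
    have c1 := (hA Z).2.2 _ (hJ _ (hA T)) (hA T).2.1
    obtain ⟨c2, c3⟩ := (Prod.Lex.toLex_le_toLex.1 (hm Z ⟨hY.to_le hZY, fun e => h0 (eq_bot_iff.2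
      (hBZ.trans e.le)), H, M, hH, hM, hne, hZY.trans hYH,
      hZ ▸ inf_le_right.trans hN⟩)).resolve_left (not_lt.2 c1)
    have c4 : thompsonSubgroupOf 2 T ≤ thompsonSubgroupOf 2 Z := J_le_iff.2 fun D hD =>
      H5.le_thompsonSubgroupOf ⟨hJ D hD, hD.2.1, fun E a b =>
        ((hA Z).2.2 E a b).trans (c2.le.trans (hD.2.2 _ (hA T).1 (hA T).2.1))⟩
    obtain ⟨c5, c6⟩ := (Prod.Lex.toLex_le_toLex.1 c3).resolve_left (not_lt.2 (card_le_of_le c4))
    refine (eq_of_le_of_card_le (le_inf hBZ ?_) c6).symm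
    rw [← eq_of_le_of_card_le c4 c5.le]
    exact inf_le_right
  haveI := hY.isNilpotent
  by_contra hc
  refine ((snIn_of_isNilpotent hZY).lt_normalizer fun e => hc (e ▸ key)).not_ge ?_
  nth_rewrite 2 [hZ]
  exact le_inf inf_le_right (inf_le_left.trans (key ▸ norm_le_norm_bau Z))

/-- The relevant minimal parabolics. -/
def Star (B P : Subgroup G) : Prop :=
  Par B P ∧ ∀ H, ML H → P ≤ H → ∃ M, ML M ∧ normalizer (B : Set G) ≤ M ∧ H ≠ M

theorem Star.good {B P H : Subgroup G} (h : Star B P) (hB : Top B) (hH : ML H) (hP : P ≤ H) :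
    Good B H := by
  obtain ⟨M, a, b, c⟩ := h.2 H hH hP
  exact hB.good M H a hH b c (h.1.le.trans hP)

theorem Star.conj {B P : Subgroup G} (h : Star B P) {g : G} (hg : g ∈ normalizer (B : Set G)) :
    Star B (MulAut.conj g • P) := by
  refine ⟨mem_normalizer_iff_conj_smul.1 hg ▸ h.1.conj g, fun H hH hP => ?_⟩
  obtain ⟨M, a, b, c⟩ := h.2 _ (hH.conj g⁻¹) (conj_smul_le_iff.1 hP)
  refine ⟨_, a.conj g, conj_self hg ▸ conj_smul_mono g b, fun e => c ?_⟩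
  rw [e, conj_smul_inv_cancel]

theorem ZN.exists_am (h : ZN G) {B : Subgroup G} (hB : Top B) :
    ∃ P₁ P₂, Star B P₁ ∧ Star B P₂ ∧ P₁ ⊓ P₂ = B ∧ Am P₁ P₂ := by
  by_contra hc
  push Not at hc
  have hall : ∀ P P', Star B P → Star B P' → P' ≤ normalizer (VP B P : Set G) := fun P P' a b => by
    obtain ⟨U, h1, h2, h3, h4⟩ : ∃ U ≤ B, P ≤ normalizer (U : Set G) ∧
        P' ≤ normalizer (U : Set G) ∧ U ≠ ⊥ := by
      by_contra hn
      push Not at hn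
      have e : P ⊓ P' = B := eq_of_relIndex_prime Nat.prime_three (le_inf a.1.le b.1.le)
        inf_le_left a.1.i3 fun e => oz_ne_bot hB.pg hB.ne (eq_bot_iff.2 (b.1.zQ.trans
          (hn _ b.1.Q_le ((e.trans inf_le_right).trans (le_normalizer_pCoreOf 2 P'))
            (le_normalizer_pCoreOf 2 P')).le))
      exact hc P P' a b e ⟨e ▸ a.1, e ▸ b.1, e ▸ hn⟩
    obtain ⟨H, c, d⟩ := exists_ML (hB.pg.to_le h1) h4
    exact (h.loc c (a.good hB c (h2.trans d)) hB.pg (a.1.le.trans (h2.trans d))).2 P (h2.trans d)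
      P' (h3.trans d) a.1 b.1
  obtain ⟨M, hM, h1, h2⟩ : ∃ M, ML M ∧ normalizer (B : Set G) ≤ M ∧ ∀ P, Star B P → P ≤ M := by
    by_cases e : ∃ P, Star B P
    · obtain ⟨P, hP⟩ := e
      obtain ⟨M, a, b⟩ := exists_ML (U := sSup {V | ∃ P, Star B P ∧ V = VP B P})
        (hB.pg.to_le (sSup_le (by
          rintro _ ⟨P, c, rfl⟩
          exact c.1.VP_le.trans ((oz_le _).trans c.1.Q_le))))
        fun e => hP.1.VP_ne_bot (eq_bot_iff.2 (le_trans (le_sSup (by exact ⟨P, hP, rfl⟩)) e.le))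
      refine ⟨M, a, (le_normalizer_sSup ?_).trans b, fun P' c => (le_normalizer_sSup ?_).trans b⟩
      · rintro g hg _ ⟨P, c, rfl⟩
        rw [conj_VP, mem_normalizer_iff_conj_smul.1 hg]
        exact le_sSup ⟨_, c.conj hg, rfl⟩
      · rintro g hg _ ⟨P, d, rfl⟩
        rw [mem_normalizer_iff_conj_smul.1 (hall P P' d c hg)]
        exact le_sSup ⟨_, d, rfl⟩
    · obtain ⟨M, a, b⟩ := exists_ML hB.pg hB.ne
      exact ⟨M, a, b, fun P c => absurd ⟨P, c⟩ e⟩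
  have key : ∀ H, ML H → B ≤ H → H = M := fun H a b => by
    by_contra hne
    refine hne (a.2 M ((h.loc a (hB.good M H hM a h1 hne b) hB.pg b).1 M h1 fun P _ d => ?_)
      hM.1).symm
    by_contra e
    exact e (h2 P ⟨d, fun H' _ c => ⟨M, hM, h1, fun e' => e (e' ▸ c)⟩⟩)
  obtain ⟨H₁, H₂, a, b, c, d, e⟩ := hB.two
  exact c ((key _ a d).trans (key _ b e).symm)

end Cfsg.Agent.H2.AM
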