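import Cfsg.Agent.H8.PComplement

/-!
A transfer lemma for an extremal involution.
-/

set_option autoImplicit false

namespace Cfsg.Agent.H2.AM

open Subgroup Cfsg MulAction
open scoped Pointwise

theorem prod_eq_one_of_fixed {B Ω A : Type*} [Group B] [MulAction B Ω] [Fintype Ω] [CommGroup A]
    (hB : IsPGroup 2 B) (f : Ω → A) (h1 : ∀ (b : B) x, f (b • x) = f x) (h2 : ∀ x, f x * f x = 1)
    (h3 : ∀ x, (∀ b : B, b • x = x) → f x = 1) : ∏ x, f x = 1 := by
  classical
  rw [← Finset.prod_fiberwise_of_maps_to (t := Finset.univ.image f) (g := f)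
    (fun x _ => Finset.mem_image_of_mem f (Finset.mem_univ x))]
  refine Finset.prod_eq_one fun a ha => ?_
  obtain ⟨x, -, rfl⟩ := Finset.mem_image.1 ha
  rw [Finset.prod_congr rfl fun y hy => (Finset.mem_filter.1 hy).2, Finset.prod_const]
  by_cases e : f x = 1
  · rw [e, one_pow]
  let K : SubMulAction B Ω := ⟨{y | f y = f x}, fun b y hy => (h1 b y).trans hy⟩
  have hK := hB.card_modEq_card_fixedPoints K
  haveI : IsEmpty (fixedPoints B K) := ⟨fun y => e (y.1.2.symm.trans
    (h3 _ fun b => congrArg Subtype.val (y.2 b)))⟩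
  rw [Nat.card_of_isEmpty (α := fixedPoints B K), Nat.modEq_zero_iff_dvd,
    show Nat.card K = (Finset.univ.filter fun y => f y = f x).card from
      (Nat.card_eq_fintype_card (α := {y // f y = f x})).trans (Fintype.card_subtype _)] at hK
  obtain ⟨k, hk⟩ := hK
  rw [hk, pow_mul, pow_two, h2, one_pow]

variable {G : Type*} [Group G] [Finite G]

theorem notMem_pResidual {S B : Subgroup G} (hS : IsPGroup 2 S) (hi : ¬ 2 ∣ S.index)
    (hB : IsPGroup 2 B) {c : G} (hc : c ∈ B) (c2 : c * c = 1) (hBc : ∀ b ∈ B, b * c = c * b)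
    (hcS : c ∈ S) (h0 : (⟨c, hcS⟩ : S) ∉ commutator S)
    (hx : ∀ x : G, (∀ b ∈ B, x⁻¹ * b * x ∈ S) → ∀ h : x⁻¹ * c * x ∈ S,
      Abelianization.of (⟨_, h⟩ : S) = Abelianization.of ⟨c, hcS⟩) : c ∉ pResidual 2 G := by
  classical
  intro hmem
  obtain ⟨φ, hφ⟩ : ∃ φ, φ = (Abelianization.of : S →* Abelianization S) := ⟨_, rfl⟩
  rw [← hφ] at hx
  have h1 : MonoidHom.transfer φ c = 1 := H8.pResidual_le_ker (hS.of_surjective φ
    (hφ ▸ QuotientGroup.mk_surjective)) _ hmem
  letI := S.fintypeQuotientOfFiniteIndex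
  have ci : c⁻¹ = c := inv_eq_of_mul_eq_one_right c2
  let T : S.LeftTransversal := default
  obtain ⟨τ, hτ⟩ : ∃ τ : G ⧸ S → G, τ = fun q => (T.2.leftQuotientEquiv q : G) := ⟨_, rfl⟩
  have τq : ∀ q, (τ q : G ⧸ S) = q := fun q => hτ ▸ T.2.quotientGroupMk_leftQuotientEquiv q
  have hm : ∀ (g : G) (q : G ⧸ S), (τ (g • q))⁻¹ * g * τ q ∈ S := fun g q => by
    rw [mul_assoc, ← QuotientGroup.eq, τq, ← smul_eq_mul, ← Quotient.smul_mk, τq]
  have cc : ∀ q : G ⧸ S, c • c • q = q := fun q => by rw [← mul_smul, c2, one_smul]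
  obtain ⟨a, ha⟩ : ∃ a : G ⧸ S → Abelianization S, a = fun q => φ ⟨_, hm c q⟩ := ⟨_, rfl⟩
  have aa : ∀ q, a (c • q) * a q = 1 := fun q => by
    rw [ha, ← map_mul, ← map_one φ]
    exact congrArg φ (Subtype.ext (by simp [cc, mul_assoc, ← mul_assoc c c, c2]))
  have h2 : ∏ q, a q = 1 := by
    rw [← h1, MonoidHom.transfer_def φ T, leftTransversals.diff]
    refine Fintype.prod_equiv (toPerm c) _ _ fun q => ?_
    rw [ha]
    exact congrArg φ (Subtype.ext (by
      simp [smul_apply_eq_smul_apply_inv_smul, hτ, mul_assoc]))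
  have h3 : ∏ q with ¬ c • q = q, a q = 1 := Finset.prod_involution (fun q _ => c • q)
    (fun q _ => by rw [mul_comm, aa]) (fun q hq _ => (Finset.mem_filter.1 hq).2)
    (fun q hq => by simpa [cc, eq_comm] using hq) fun q _ => cc q
  rw [← Finset.prod_filter_mul_prod_filter_not _ fun q => c • q = q, h3, mul_one,
    Finset.prod_filter] at h2
  have c0 : φ ⟨c, hcS⟩ * φ ⟨c, hcS⟩ = 1 := by
    rw [← map_mul, ← map_one φ]; exact congrArg φ (Subtype.ext c2)
  have h4 := prod_eq_one_of_fixed hB (fun q : G ⧸ S => (if c • q = q then a q else 1) * φ ⟨c, hcS⟩)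
    (fun b q => by
      have e : c • (b : G) • q = (b : G) • c • q := by rw [← mul_smul, ← mul_smul, hBc b b.2]
      change (if c • (b : G) • q = (b : G) • q then a ((b : G) • q) else 1) * _ = _
      congr 1
      refine if_ctx_congr (by rw [e, smul_left_cancel_iff]) (fun e' => ?_) fun _ => rfl
      rw [← mul_left_inj (φ ⟨_, hm b q⟩), mul_comm (a q), ha, ← map_mul, ← map_mul]
      refine congrArg φ (Subtype.ext ?_)
      simp only [coe_mul, e, e', mul_assoc, mul_inv_cancel_left]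
      rw [← mul_assoc c, ← hBc b b.2, mul_assoc])
    (fun q => by
      rw [mul_mul_mul_comm, c0, mul_one]
      split_ifs with e
      · nth_rewrite 1 [← e]; exact aa q
      · exact one_mul 1)
    fun q hq => by
      have e : c • q = q := hq ⟨c, hc⟩
      rw [if_pos e, ha, ← c0, ← hx (τ q) (fun b hb => by
        have := hm b q
        rwa [show b • q = q from hq ⟨b, hb⟩] at this) (by have := hm c q; rwa [e] at this)]
      simp only [e]
  obtain ⟨k, hk⟩ := Nat.not_even_iff_odd.1 fun e => hi e.two_dvd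
  rw [Finset.prod_mul_distrib, h2, one_mul, Finset.prod_const, Finset.card_univ,
    ← Nat.card_eq_fintype_card, ← index_eq_card, hk, pow_succ, pow_mul, pow_two, c0, one_pow,
    one_mul, hφ] at h4
  exact h0 ((QuotientGroup.eq_one_iff _).1 h4)

end Cfsg.Agent.H2.AM
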