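import Cfsg.Agent.H2.Amal6

/-!
The structure of the amalgam.
-/

set_option autoImplicit false
set_option linter.unusedSectionVars false

namespace Cfsg.Agent.H2.AM

open Subgroup Cfsg H1
open scoped commutatorElement Pointwise

variable {G : Type*} [Group G] [Finite G]

theorem le_cent1 {K : Subgroup G} {e : G} :
    K ≤ centralizer ({e} : Set G) ↔ ∀ k ∈ K, k * e * k⁻¹ = e :=
  forall₂_congr fun _ _ => mem_centralizer_singleton_iff.trans mul_inv_eq_iff_eq_mul.symm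

namespace Par

variable {B P : Subgroup G} (h : Par B P) {g : G} (hg : g ∈ P) (hg' : g ∉ B)
include h hg hg'

theorem gen_conj {K : Subgroup G} (h1 : B ≤ K) (h2 : MulAut.conj g • B ≤ K) : P ≤ K :=
  h.gen (h.conj' hg).le (fun e => hg' (h.mem_of_norm hg (mem_normalizer_of_conj_smul_le e))) h1 h2

theorem cent_of {e : G} (h1 : e ∈ oz B) (h2 : e ∈ MulAut.conj g • oz B) :
    P ≤ centralizer ({e} : Set G) :=
  h.gen_conj hg hg' (fun x hx => mem_centralizer_singleton_iff.2 (h1.2.1 x hx))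
    fun x hx => mem_centralizer_singleton_iff.2 ((conj_oz g B ▸ h2 :).2.1 x hx)

variable {z : G} (hz : Gen P B z)
include hz

theorem norm_of {X : Subgroup G} (hX : X ≤ Zv P) (h1 : z ∈ X) (h2 : g * z * g⁻¹ ∈ X) :
    P ≤ normalizer (X : Set G) := by
  refine h.gen_conj hg hg' (le_normalizer_iff_commutator_le_left.2
    ((commutator_mono hX le_rfl).trans (hz.comm_eq.le.trans (zpowers_le.2 h1))))
    (le_normalizer_iff_commutator_le_left.2 ((commutator_mono hX le_rfl).trans ?_))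
  rw [← mem_normalizer_iff_conj_smul.1 (le_norm_Zv P hg), ← conj_smul_commutator, hz.comm_eq]
  exact conj_zpowers_le.2 h2

theorem conj_notMem : g * z * g⁻¹ ∉ oz B := fun e => by
  have := h.norm_of hg hg' hz h.oz_le_Z hz.mem e
  refine h.nz (h.gen_conj hg hg' (le_cent_oz B) ?_)
  rw [← mem_normalizer_iff_conj_smul.1 (this hg), conj_oz]
  exact le_cent_oz _

omit hg hg'

theorem not_cent : ¬ P ≤ centralizer ({z} : Set G) := fun e => by
  obtain ⟨g, hg, hg'⟩ := h.exists_notMem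
  exact h.conj_notMem hg hg' hz ((le_cent1.1 e g hg).symm ▸ hz.mem)

theorem cent_or {e : G} (he : e ∈ oz B) :
    P ≤ centralizer ({e} : Set G) ∨ P ≤ centralizer ({e * z} : Set G) := by
  obtain ⟨g, hg, hg'⟩ := h.exists_notMem
  have hn : z ∉ MulAut.conj g • oz B := fun c => h.not_cent hz (h.cent_of hg hg' hz.mem c)
  have h1 := relIndex_le_of_le_right h.oz_le_Z (relIndex_pos (MulAut.conj g • oz B) _).ne'
  rw [conj_oz, (h.conj' hg).iz, ← conj_oz] at h1
  have h2 := relIndex_pos (MulAut.conj g • oz B) (oz B)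
  have h3 : (MulAut.conj g • oz B).relIndex (oz B) ≠ 1 := fun c => hn (relIndex_eq_one.1 c hz.mem)
  by_cases c : e ∈ MulAut.conj g • oz B
  exacts [Or.inl (h.cent_of hg hg' he c), Or.inr (h.cent_of hg hg' (mul_mem he hz.mem)
    (mul_mem_two (by omega) he hz.mem c hn))]

end Par

/-- An amalgam with noncommuting `Z_α`, `Z_β`. -/
structure Bm (B α β : Subgroup G) : Prop where
  p1 : Par B α
  p2 : Par B β
  triv : ∀ U ≤ B, α ≤ normalizer (U : Set G) → β ≤ normalizer (U : Set G) → U = ⊥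
  ncm : ¬ Cm α β

namespace Bm

variable {B α β : Subgroup G} (h : Bm B α β)
include h

theorem symm : Bm B β α := ⟨h.p2, h.p1, fun U a b c => h.triv U a c b, fun e => h.ncm e.symm⟩

theorem exists_u : ∃ u ∈ Zv α, u ∉ pCoreOf 2 β :=
  SetLike.not_le_iff_exists.1 fun e => h.ncm (e.trans (le_cent_oz _))

theorem Z_le : Zv α ≤ B := (oz_le _).trans h.p1.Q_le

theorem sq_le : Subgroup.closure ((fun x : G => x * x) '' (pCoreOf 2 α : Set G)) ≤
    Subgroup.closure ((fun x : G => x * x) '' (pCoreOf 2 β : Set G)) := by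
  obtain ⟨u, hu, hu'⟩ := h.exists_u
  refine closure_mono ?_
  rintro _ ⟨x, hx, rfl⟩
  by_cases e : x ∈ pCoreOf 2 β
  · exact ⟨x, e, rfl⟩
  refine ⟨x * u, mul_mem_two h.p2.i2 (h.p1.Q_le hx) (h.Z_le hu) e hu', ?_⟩
  simp only
  rw [mul_assoc, ← mul_assoc u, ← hu.2.1 x hx, mul_assoc, hu.2.2, mul_one]

theorem Q_eq : pCoreOf 2 α = Zv α := by
  have hn : ∀ Q : Subgroup G, normalizer (Q : Set G) ≤
      normalizer (Subgroup.closure ((fun x : G => x * x) '' (Q : Set G)) : Set G) := fun Q g hg =>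
    mem_normalizer_of_conj_smul_le (conj_smul_le_iff.2 ((closure_le _).2 (by
      rintro _ ⟨x, hx, rfl⟩
      refine mem_conj_smul.2 (Subgroup.subset_closure ⟨_, conj_mem_of_le_normalizer le_rfl hg hx, ?_⟩)
      simp only [inv_inv, conj_mul])))
  have := h.triv _ ((closure_le _).2 (by
    rintro _ ⟨x, hx, rfl⟩
    exact h.p1.Q_le (mul_mem hx hx))) ((le_normalizer_pCoreOf 2 α).trans (hn _))
    (le_antisymm h.sq_le h.symm.sq_le ▸ (le_normalizer_pCoreOf 2 β).trans (hn _))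
  have sq : ∀ x ∈ pCoreOf 2 α, x * x = 1 := fun x hx =>
    mem_bot.1 (this ▸ Subgroup.subset_closure ⟨x, hx, rfl⟩)
  refine le_antisymm (fun x hx => ⟨hx, fun y hy => ?_, sq x hx⟩) (oz_le _)
  rw [← inv_eq_of_mul_eq_one_right (sq _ (mul_mem hy hx)), mul_inv_rev,
    inv_eq_of_mul_eq_one_right (sq x hx), inv_eq_of_mul_eq_one_right (sq y hy)]

theorem i2 : (Zv α).relIndex B = 2 := h.Q_eq ▸ h.p1.i2

theorem Z_comm : Zv α ≤ centralizer (Zv α : Set G) := (oz_le _).trans (le_cent_oz _)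

theorem mem_E {u x : G} (hu : u ∈ B) (hu' : u ∉ Zv α) (hx : x ∈ Zv α) (hc : u * x = x * u) :
    x ∈ oz B :=
  ⟨h.Z_le hx, le_centralizer_iff.1 ((sup_zpowers_eq_of_relIndex_prime Nat.prime_two h.Z_le h.i2 hu
    hu').ge.trans (sup_le (le_centralizer_iff.1 (zpowers_le.2 (h.Z_comm hx))) (zpowers_le.2
      (cent_zpowers x ▸ mem_centralizer_singleton_iff.2 hc)))) (mem_zpowers x), hx.2.2⟩

theorem mem_E' {x : G} (h1 : x ∈ Zv α) (h2 : x ∈ Zv β) : x ∈ oz B := by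
  obtain ⟨v, hv, hv'⟩ := h.symm.exists_u
  exact h.mem_E (h.symm.Z_le hv) (h.Q_eq ▸ hv') h1 (h.symm.Z_comm h2 v hv)

theorem comm_ne {u v : G} (hu : u ∈ Zv α) (hu' : u ∉ Zv β) (hv : v ∈ B) (hv' : v ∉ Zv α) :
    ⁅u, v⁆ ≠ 1 := fun e => hu' (h.p2.oz_le_Z
  (h.mem_E hv hv' hu (commutatorElement_eq_one_iff_mul_comm.1 e).symm))

theorem exists_z : ∃ z, Gen α B z ∧ Gen β B z := by
  obtain ⟨u, hu, hu'⟩ := h.exists_u
  obtain ⟨v, hv, hv'⟩ := h.symm.exists_u
  rw [h.symm.Q_eq] at hu'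
  rw [h.Q_eq] at hv'
  have h1 := h.p1.gen_of hu (h.symm.Z_le hv) (h.comm_ne hu hu' (h.symm.Z_le hv) hv')
  have h2 := h.p2.gen_of hv (h.Z_le hu) (h.symm.comm_ne hv hv' (h.Z_le hu) hu')
  refine ⟨_, h1, ?_⟩
  rwa [← inv_eq_of_mul_eq_one_right h1.mem.2.2, commutatorElement_inv]

theorem inv_mem {a : G} (ha : a ∈ B) (a2 : a * a = 1) : a ∈ Zv α ∨ a ∈ Zv β := by
  by_contra hc
  push Not at hc
  obtain ⟨u, hu, hu'⟩ := h.exists_u
  rw [h.symm.Q_eq] at hu'
  have h1 := mul_mem_two h.symm.i2 ha (h.Z_le hu) hc.2 hu'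
  refine h.comm_ne hu hu' ha hc.1 ?_
  rw [commutatorElement_def, inv_eq_of_mul_eq_one_right a2, inv_eq_of_mul_eq_one_right hu.2.2,
    ← mul_left_inj a⁻¹, ← mul_right_inj a, mul_inv_cancel_right, one_mul, mul_inv_cancel, ← h1.2.2]
  group

variable {z : G} (h1 : Gen α B z) (h2 : Gen β B z)
include h1 h2

theorem commB {a b : G} (ha : a ∈ B) (hb : b ∈ B) : ⁅a, b⁆ = 1 ∨ ⁅a, b⁆ = z := by
  have key : ∀ {γ}, Gen γ B z → b ∈ Zv γ → ⁅a, b⁆ = 1 ∨ ⁅a, b⁆ = z := fun c d => by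
    rw [← commutatorElement_inv, inv_eq_one, inv_eq_iff_eq_inv, inv_eq_of_mul_eq_one_right c.mem.2.2]
    exact c.all b d a ha
  by_cases a1 : a ∈ Zv α
  · exact h1.all a a1 b hb
  by_cases a2 : a ∈ Zv β
  · exact h2.all a a2 b hb
  by_cases b1 : b ∈ Zv α
  · exact key h1 b1
  by_cases b2 : b ∈ Zv β
  · exact key h2 b2
  have := (h.mem_E' (mul_mem_two h.i2 ha hb a1 b1) (mul_mem_two h.symm.i2 ha hb a2 b2)).2.1 a ha
  exact Or.inl (commutatorElement_eq_one_iff_mul_comm.2 (mul_left_cancel (this.trans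
    (mul_assoc _ _ _))))

theorem norm_z {x : G} (hx : x ∈ normalizer (B : Set G)) : x * z * x⁻¹ = z := by
  obtain ⟨u, hu, v, hv, e⟩ := h1.ex
  have := h.commB h1 h2 (conj_mem_of_le_normalizer le_rfl hx (h.Z_le hu))
    (conj_mem_of_le_normalizer le_rfl hx hv)
  rw [← conjugate_commutatorElement, e] at this
  exact this.resolve_left fun c => h1.ne (by simpa using c)

theorem exists_c : ∃ c ∈ oz B, α ≤ centralizer ({c} : Set G) ∧
    ∀ e ∈ oz B, α ≤ centralizer ({e} : Set G) → e = 1 ∨ e = c := by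
  have t : ∀ e ∈ oz B, α ≤ centralizer ({e} : Set G) → β ≤ centralizer ({e} : Set G) → e = 1 :=
    fun e a b c => zpowers_eq_bot.1 (h.triv _ (zpowers_le.2 a.1) (le_normalizer_of_le_centralizer
      (cent_zpowers e ▸ b)) (le_normalizer_of_le_centralizer (cent_zpowers e ▸ c)))
  by_cases hc : ∃ c ∈ oz B, α ≤ centralizer ({c} : Set G) ∧ c ≠ 1
  · obtain ⟨c, c1, c2, c3⟩ := hc
    refine ⟨c, c1, c2, fun e e1 e2 => or_iff_not_imp_left.2 fun e3 => ?_⟩
    have d1 := le_cent1.1 ((h.p2.cent_or h2 c1).resolve_left fun a => c3 (t c c1 c2 a))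
    have d2 := le_cent1.1 ((h.p2.cent_or h2 e1).resolve_left fun a => e3 (t e e1 e2 a))
    refine mul_inv_eq_one.1 (t _ (mul_mem e1 (Subgroup.inv_mem _ c1)) (le_cent1.2 fun k hk => ?_)
      (le_cent1.2 fun k hk => ?_))
    · rw [← conj_mul, ← conj_inv, le_cent1.1 c2 k hk, le_cent1.1 e2 k hk]
    · rw [show e * c⁻¹ = e * z * (c * z)⁻¹ by group, ← conj_mul, ← conj_inv, d1 k hk, d2 k hk]
  · push Not at hc
    exact ⟨1, one_mem _, le_cent1.2 fun k _ => by simp, fun e a b => Or.inl (hc e a b)⟩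

end Bm

end Cfsg.Agent.H2.AM
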