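import Cfsg.Agent.H2.Amal7
import Cfsg.Agent.H2.Amal8
import Cfsg.Agent.P4.Dih
import Cfsg.Agent.H3.DQ

/-!
`ZN`-groups of characteristic two type.
-/

set_option autoImplicit false
set_option linter.unusedSectionVars false

namespace Cfsg.Agent.H2.AM

open Subgroup Cfsg H1
open scoped commutatorElement Pointwise

variable {G : Type*} [Group G] [Finite G]

theorem eq_or {z a : G} (hz : z * z = 1) (ha : a ∈ zpowers z) : a = 1 ∨ a = z :=
  ZC.eq_or_eq_of_mem_zpowers ((pow_two z).trans hz) ha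

theorem Good.le {B H D : Subgroup G} (h : Good B H) (hB : IsPGroup 2 B) (hBH : B ≤ H)
    (hD : IsPGroup 2 D) (hDH : D ≤ H) (hn : B ≤ normalizer (D : Set G)) :
    D ≤ normalizer (B : Set G) ∧ (D ≤ centralizer (oz B : Set G) → D ≤ B) := by
  have := h _ (IsPGroup.to_sup_of_normal_right' hB hD hn) le_sup_left (sup_le hBH hDH)
  refine ⟨(le_sup_right.trans le_normalizer).trans (this ▸ norm_le_norm_bau (B ⊔ D)), fun e => ?_⟩
  rw [← this, oz_bau] at e
  exact (le_inf le_sup_right e).trans this.le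

theorem Par.sup_E {B P : Subgroup G} (h : Par B P) {u : G} (hu : u ∈ Zv P) (hu' : u ∉ oz B) :
    oz B ⊔ zpowers u = Zv P :=
  sup_zpowers_eq_of_relIndex_prime Nat.prime_two h.oz_le_Z h.iz hu hu'

/-- The configuration. -/
structure Cfg (B α β : Subgroup G) (z c g : G) : Prop where
  zn : ZN G
  top : Top B
  star : Star B α
  bm : Bm B α β
  g1 : Gen α B z
  g2 : Gen β B z
  cE : c ∈ oz B
  cc : α ≤ centralizer ({c} : Set G)
  cu : ∀ e ∈ oz B, α ≤ centralizer ({e} : Set G) → e = 1 ∨ e = c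
  gP : g ∈ α
  gB : g ∉ B
  g3 : g ^ 3 = 1

theorem ZN.exists_cfg (h : ZN G) {B : Subgroup G} (hB : Top B) :
    ∃ α β z c g, Cfg B α β z c g := by
  obtain ⟨α, β, h1, -, e, h3⟩ := h.exists_am hB
  have h4 : Bm B α β := ⟨e ▸ h3.p1, e ▸ h3.p2, e ▸ h3.triv, h3.not_cm⟩
  obtain ⟨z, a1, a2⟩ := h4.exists_z
  obtain ⟨c, b1, b2, b3⟩ := h4.exists_c a1 a2
  haveI := Fact.mk Nat.prime_three
  obtain ⟨g, hg⟩ := exists_prime_orderOf_dvd_card' (G := α) 3 (h1.1.i3 ▸ relIndex_dvd_card _ _)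
  refine ⟨α, β, z, c, g, h, hB, h1, h4, a1, a2, b1, b2, b3, g.2, fun e => ?_, by
    rw [← hg, ← coe_pow, pow_orderOf_eq_one, coe_one]⟩
  obtain ⟨k, hk⟩ := hB.pg ⟨g, e⟩
  have : orderOf (g : G) ∣ 2 ^ k := orderOf_dvd_of_pow_eq_one (congrArg Subtype.val hk)
  rw [orderOf_coe, hg] at this
  exact absurd (Nat.prime_three.dvd_of_dvd_pow this) (by norm_num)

namespace Cfg

variable {B α β : Subgroup G} {z c g : G} (h : Cfg B α β z c g)
include h

theorem memE {e : G} (he : e ∈ oz B) : e = 1 ∨ e = c ∨ e = z ∨ e = c * z := by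
  have := inv_eq_of_mul_eq_one_right h.g1.mem.2.2
  rcases h.bm.p1.cent_or h.g1 he with a | a
  · rcases h.cu e he a with a | a <;> simp [a]
  · rcases h.cu _ (mul_mem he h.g1.mem) a with a | a <;> simp [eq_mul_inv_of_mul_eq a, this]

theorem zZ : z ∈ Zv α := h.bm.p1.oz_le_Z h.g1.mem

theorem z'Z : g * z * g⁻¹ ∈ Zv α := conj_mem_of_le_normalizer (le_norm_Zv α) h.gP h.zZ

theorem z'E : g * z * g⁻¹ ∉ oz B := h.bm.p1.conj_notMem h.gP h.gB h.g1

theorem V_le : zpowers z ⊔ zpowers (g * z * g⁻¹) ≤ Zv α :=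
  sup_le (zpowers_le.2 h.zZ) (zpowers_le.2 h.z'Z)

theorem norm_V : α ≤ normalizer ((zpowers z ⊔ zpowers (g * z * g⁻¹) : Subgroup G) : Set G) :=
  h.bm.p1.norm_of h.gP h.gB h.g1 h.V_le (mem_sup_left (mem_zpowers _))
    (mem_sup_right (mem_zpowers _))

theorem memV {x : G} (hx : x ∈ zpowers z ⊔ zpowers (g * z * g⁻¹)) :
    x = 1 ∨ x = z ∨ x = g * z * g⁻¹ ∨ x = z * (g * z * g⁻¹) := by
  obtain ⟨a, ha, b, hb, rfl⟩ := (mem_sup_iff_of_le_normalizer (le_normalizer_of_le_centralizer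
    ((zpowers_le.2 h.zZ).trans (h.bm.Z_comm.trans (centralizer_le (zpowers_le.2 h.z'Z)))))).1 hx
  rcases eq_or h.zZ.2.2 ha with rfl | rfl <;> rcases eq_or h.z'Z.2.2 hb with rfl | rfl <;> simp

theorem memQ {x : G} (hx : x ∈ Zv α) :
    x ∈ zpowers z ⊔ zpowers (g * z * g⁻¹) ∨ c * x ∈ zpowers z ⊔ zpowers (g * z * g⁻¹) := by
  have a := (mem_sup_left (mem_zpowers _) : z ∈ zpowers z ⊔ zpowers (g * z * g⁻¹))
  have key : ∀ x ∈ oz B, x ∈ zpowers z ⊔ zpowers (g * z * g⁻¹) ∨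
      c * x ∈ zpowers z ⊔ zpowers (g * z * g⁻¹) := fun x hx => by
    rcases h.memE hx with rfl | rfl | rfl | rfl
    exacts [Or.inl (one_mem _), Or.inr (h.cE.2.2 ▸ one_mem _), Or.inl a,
      Or.inr (by rwa [← mul_assoc, h.cE.2.2, one_mul])]
  by_cases e : x ∈ oz B
  · exact key x e
  have := key _ (mul_mem_two h.bm.p1.iz hx h.z'Z e h.z'E)
  rwa [← mul_assoc c, Subgroup.mul_mem_cancel_right _ (mem_sup_right (mem_zpowers _)),
    Subgroup.mul_mem_cancel_right _ (mem_sup_right (mem_zpowers _))] at this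

theorem cent_E {x : G} (hx : x ∈ normalizer (B : Set G)) (hc : x * c * x⁻¹ = c) :
    x ∈ centralizer (oz B : Set G) := fun e he => by
  have := h.bm.norm_z h.g1 h.g2 hx
  rw [eq_comm, ← mul_inv_eq_iff_eq_mul]
  rcases h.memE he with rfl | rfl | rfl | rfl
  exacts [by simp, hc, this, by rw [← conj_mul, hc, this]]

theorem good {U : Subgroup G} (hU : IsPGroup 2 U) (h0 : U ≠ ⊥) (hn : α ≤ normalizer (U : Set G)) :
    ∃ H, ML H ∧ normalizer (U : Set G) ≤ H ∧ Good B H := by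
  obtain ⟨H, a, b⟩ := exists_ML hU h0
  exact ⟨H, a, b, h.star.good h.top a (hn.trans b)⟩

theorem pgZ : IsPGroup 2 (Zv α) := h.top.pg.to_le h.bm.Z_le

theorem cent_V : centralizer ((zpowers z ⊔ zpowers (g * z * g⁻¹) : Subgroup G) : Set G) ≤ Zv α := by
  have hV := h.pgZ.to_le h.V_le
  have hV0 : zpowers z ⊔ zpowers (g * z * g⁻¹) ≠ ⊥ := fun e =>
    h.g1.ne (mem_bot.1 (e ▸ mem_sup_left (mem_zpowers z)))
  obtain ⟨H, -, h2, h3⟩ := h.good hV hV0 h.norm_V
  have hc := h.zn.ch _ hV hV0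
  have hα := h.norm_V
  have hQ := fun {x} => h.memQ (x := x)
  have hVQ := h.V_le
  obtain ⟨V, hVd⟩ : ∃ V, V = zpowers z ⊔ zpowers (g * z * g⁻¹) := ⟨_, rfl⟩
  rw [← hVd] at h2 hc hα hQ hVQ ⊢
  obtain ⟨O, hO⟩ : ∃ O, O = pCoreOf 2 (normalizer (V : Set G)) := ⟨_, rfl⟩
  have hn : normalizer (V : Set G) ≤ normalizer (O : Set G) := hO ▸ le_normalizer_pCoreOf 2 _
  have hg := mem_normalizer_iff_conj_smul.1 (hn (hα h.gP))
  obtain ⟨a1, a2⟩ := h3.le h.top.pg (h.bm.p1.le.trans (hα.trans h2)) (D := O)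
    (hO ▸ isPGroup_pCoreOf 2 _) ((hO ▸ pCoreOf_le 2 _).trans h2) (h.bm.p1.le.trans (hα.trans hn))
  have a3 : O ≤ normalizer ((oz B ⊓ MulAut.conj g • oz B : Subgroup G) : Set G) :=
    le_normalizer_inf (a1.trans (norm_le_norm_oz B)) (by
      rw [normalizer_conj_smul, ← hg]
      exact conj_smul_mono g (a1.trans (norm_le_norm_oz B)))
  have a4 : O ≤ B := a2 fun x hx => h.cent_E (a1 hx) (by
    have := conj_mem_of_le_normalizer a3 hx (mem_inf.2 ⟨h.cE, le_cent1.1 h.cc g h.gP ▸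
      conj_mem_conj_smul h.cE⟩)
    exact (h.cu _ this.1 (h.bm.p1.cent_of h.gP h.gB this.1 this.2)).elim
      (fun e => by rw [show c = 1 by simpa using e]; simp) id)
  have a5 : O ≤ Zv α := by
    rw [← h.bm.Q_eq, ← h.bm.p1.inf_conj h.gP h.gB]
    exact le_inf a4 (hg ▸ conj_smul_mono g a4)
  rw [← hO] at hc
  have a6 : O = Zv α := le_antisymm a5 ((le_inf (h.bm.Z_le.trans (h.bm.p1.le.trans hα))
    (h.bm.Z_comm.trans (centralizer_le a5))).trans hc)
  have hCN := centralizer_le_normalizer (V : Set G)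
  rw [← a6, hO]
  refine (SnIn.of_normal hCN (normalizer_le_normalizer_centralizer V)).le_pCoreOf fun x => ⟨2, ?_⟩
  obtain ⟨x, hx⟩ := x
  have fx : ∀ y ∈ V, x * y * x⁻¹ = y := fun y hy => mul_inv_eq_iff_eq_mul.2 (hx y hy).symm
  have b1 : x * x * c * (x * x)⁻¹ = c := by
    rw [show x * x * c * (x * x)⁻¹ = x * (x * c * x⁻¹) * x⁻¹ by group]
    rcases hQ (a6 ▸ conj_mem_of_le_normalizer hn (hCN hx)
      (a6 ▸ h.bm.p1.oz_le_Z h.cE : c ∈ O)) with e | e
    · exact (fx _ e).trans (mul_left_cancel (mul_right_cancel (fx _ e)))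
    · obtain ⟨v, hv⟩ : ∃ v, v = c * (x * c * x⁻¹) := ⟨_, rfl⟩
      have e' : x * c * x⁻¹ = c * v := by rw [hv, ← mul_assoc, h.cE.2.2, one_mul]
      rw [← hv] at e
      rw [e', ← conj_mul, fx _ e, e', mul_assoc, (hVQ e).2.2, mul_one]
  have b2 : x * x ∈ Zv α := a6 ▸ hc (mem_inf.2 ⟨hCN (mul_mem hx hx), fun y hy => by
    rcases hQ (a5 hy) with e | e
    · exact mul_mem hx hx y e
    · have := mul_mem hx hx _ e
      rw [← mul_assoc (x * x), mul_inv_eq_iff_eq_mul.1 b1, mul_assoc, mul_assoc c] at this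
      exact mul_left_cancel this⟩)
  exact Subtype.ext (by simpa [pow_succ, mul_assoc] using b2.2.2)

theorem mem_of_normQ {x : G} (h1 : x ∈ normalizer (B : Set G))
    (h2 : x ∈ normalizer (Zv α : Set G)) : x ∈ B := by
  obtain ⟨H, a, b, d⟩ := h.good h.pgZ (fun e => h.g1.ne (mem_bot.1 (e ▸ h.zZ))) (le_norm_Zv α)
  have e1 := mem_normalizer_iff_conj_smul.1 h1
  have hz := h.bm.norm_z h.g1 h.g2 h1
  have hα := (le_norm_Zv α).trans b
  have c1 := (h.zn.loc a d h.top.pg (h.bm.p1.le.trans hα)).2 _ (conj_smul_le_of_mem hα (b h2)) α hα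
    (e1 ▸ h.bm.p1.conj x) h.bm.p1
  have c2 : z ∈ VP B α := le_nclIn _ _ (h.g1.comm_eq ▸ mem_zpowers z)
  rw [← e1, ← conj_VP] at c1
  have c3 : VP B α ≤ MulAut.conj x • VP B α := nclIn_le_of_normal
    (h.g1.comm_eq ▸ zpowers_le.2 (hz ▸ conj_mem_conj_smul c2)) c1
  have c4 := nclIn_le_of_normal (h.g1.comm_eq.le.trans le_sup_left) h.norm_V
    (conj_mem_of_le_normalizer le_rfl (mem_normalizer_iff_conj_smul.2 (eq_of_le_of_card_le c3
      (card_conj_smul _ _).le).symm) (conj_mem_of_le_normalizer (le_normalizer_nclIn _ _) h.gP c2))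
  have key : ∀ y : G, y * z * y⁻¹ = z → y * (g * z * g⁻¹) * y⁻¹ = g * z * g⁻¹ → y ∈ B :=
    fun y a b => h.bm.Z_le (h.cent_V (zpowers_le.1 (le_centralizer_iff.1 (sup_le
      (le_centralizer_iff.1 (cent_zpowers z ▸ zpowers_le.2 (mem_centralizer_singleton_iff.2
        (mul_inv_eq_iff_eq_mul.1 a)))) (le_centralizer_iff.1 (cent_zpowers (g * z * g⁻¹) ▸
        zpowers_le.2 (mem_centralizer_singleton_iff.2 (mul_inv_eq_iff_eq_mul.1 b))))))))
  rcases h.memV c4 with e | e | e | e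
  · exact absurd (by simpa using e) h.g1.ne
  · exact absurd ((mul_left_cancel (mul_right_cancel (e.trans hz.symm))).symm ▸ h.g1.mem) h.z'E
  · exact key x hz e
  obtain ⟨v, hv, hv'⟩ := h.bm.symm.exists_u
  have hvB := h.bm.symm.Z_le hv
  have f1 : v * z * v⁻¹ = z := mul_inv_eq_iff_eq_mul.2 (h.g1.mem.2.1 v hvB)
  have f2 := (h.g1.all _ h.z'Z v hvB).resolve_left (h.bm.comm_ne h.z'Z
    (fun e => h.z'E (h.bm.mem_E' h.z'Z e)) hvB (h.bm.Q_eq ▸ hv'))
  refine (Subgroup.mul_mem_cancel_left _ hvB).1 (key _ ?_ ?_)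
  · rw [mul_inv_rev, mul_assoc v, mul_assoc v, ← mul_assoc (x * z), hz, ← mul_assoc, f1]
  · obtain ⟨w, hw⟩ : ∃ w, w = g * z * g⁻¹ := ⟨_, rfl⟩
    have w2 := h.z'Z.2.2
    rw [← hw] at e f2 w2 ⊢
    have f3 : v * w * v⁻¹ = w * z := by
      rw [← f2, commutatorElement_def, inv_eq_of_mul_eq_one_right w2, ← mul_assoc, ← mul_assoc,
        ← mul_assoc, w2, one_mul]
    rw [show v * x * w * (v * x)⁻¹ = v * (x * w * x⁻¹) * v⁻¹ by group, e, ← conj_mul, f1, f3,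
      ← mul_assoc, ← h.bm.Z_comm h.zZ w (hw ▸ h.z'Z), mul_assoc, h.zZ.2.2, mul_one]

theorem swap {t : G} (h1 : t ∈ normalizer (B : Set G)) (h2 : t ∉ B) {u : G} (hu : u ∈ Zv α)
    (hu' : u ∉ Zv β) : t * u * t⁻¹ ∉ Zv α := fun e => h2 (h.mem_of_normQ h1 (by
  refine mem_normalizer_of_conj_smul_le ?_
  nth_rewrite 1 [← h.bm.p1.sup_E hu fun c => hu' (h.bm.p2.oz_le_Z c)]
  rw [smul_sup, mem_normalizer_iff_conj_smul.1 (norm_le_norm_oz B h1)]
  exact sup_le h.bm.p1.oz_le_Z (conj_zpowers_le.2 e)))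

theorem swap' {t : G} (h1 : t ∈ normalizer (B : Set G)) (h2 : t ∉ B) {u : G} (hu : u ∈ Zv α)
    (hu' : u ∉ Zv β) : t * u * t⁻¹ ∈ Zv β :=
  (h.bm.inv_mem (conj_mem_of_le_normalizer le_rfl h1 (h.bm.Z_le hu))
    (by rw [conj_mul, hu.2.2]; simp)).resolve_left (h.swap h1 h2 hu hu')

theorem fix_mem {t : G} (h1 : t ∈ normalizer (B : Set G)) (h2 : t ∉ B) {a : G} (ha : a ∈ B)
    (a2 : a * a = 1) (e : t * a * t⁻¹ = a) : a ∈ oz B := by
  by_cases c1 : a ∈ Zv α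
  · exact h.bm.mem_E' c1 (by_contra fun c2 => h.swap h1 h2 c1 c2 (e.symm ▸ c1))
  have c2 := (h.bm.inv_mem ha a2).resolve_left c1
  obtain ⟨u, hu, hu'⟩ := h.bm.exists_u
  rw [h.bm.symm.Q_eq] at hu'
  have : t ∈ normalizer (Zv β : Set G) := by
    refine mem_normalizer_of_conj_smul_le ?_
    nth_rewrite 1 [← h.bm.p2.sup_E c2 fun c => c1 (h.bm.p1.oz_le_Z c)]
    rw [smul_sup, mem_normalizer_iff_conj_smul.1 (norm_le_norm_oz B h1)]
    exact sup_le h.bm.p2.oz_le_Z (conj_zpowers_le.2 (e.symm ▸ c2))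
  exact absurd ((mem_normalizer_iff.1 this u).2 (h.swap' h1 h2 hu hu')) hu'

theorem c_ne : c ≠ z := fun e => h.bm.p1.not_cent h.g1 (e ▸ h.cc)

variable (c1 : c ≠ 1)
include c1

theorem conj_c {x : G} (hx : x ∈ normalizer (B : Set G)) :
    x * c * x⁻¹ = c ∨ x * c * x⁻¹ = c * z := by
  rcases h.memE (conj_mem_of_le_normalizer (norm_le_norm_oz B) hx h.cE) with e | e | e | e
  exacts [absurd (by simpa using e) c1, Or.inl e, absurd (mul_left_cancel (mul_right_cancel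
    (e.trans (h.bm.norm_z h.g1 h.g2 hx).symm))) h.c_ne, Or.inr e]

variable {S : Subgroup G} (hS : IsPGroup 2 S) (hBS : B ≤ S)
include hS hBS

theorem conj_c' {x : G} (h1 : x ∈ S) (h2 : x ∈ normalizer (B : Set G)) (h3 : x ∉ B) :
    x * c * x⁻¹ = c * z := (h.conj_c c1 h2).resolve_left fun e => h3 (by
  have hn := le_normalizer_of_le_centralizer (cent_zpowers c ▸ h.cc)
  obtain ⟨H, -, b, d⟩ := h.good (h.top.pg.to_le (zpowers_le.2 h.cE.1))
    (fun e => c1 (zpowers_eq_bot.1 e)) hn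
  exact (d.le h.top.pg (h.bm.p1.le.trans (hn.trans b))
    (D := S ⊓ normalizer (B : Set G) ⊓ centralizer {c}) (hS.to_le (inf_le_left.trans inf_le_left))
    (inf_le_right.trans ((cent_zpowers c).ge.trans ((centralizer_le_normalizer _).trans b)))
    ((le_inf (le_inf hBS le_normalizer) (h.bm.p1.le.trans h.cc)).trans le_normalizer)).2
    (fun y hy => h.cent_E hy.1.2 (le_cent1.1 le_rfl y hy.2))
    ⟨⟨h1, h2⟩, mem_centralizer_singleton_iff.2 (mul_inv_eq_iff_eq_mul.1 e)⟩)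

theorem mul_mem_B {x y : G} (h1 : x ∈ S ⊓ normalizer (B : Set G))
    (h2 : y ∈ S ⊓ normalizer (B : Set G)) (h3 : x ∉ B) (h4 : y ∉ B) : x * y ∈ B := by
  by_contra hc
  have := h.conj_c' c1 hS hBS (mul_mem h1.1 h2.1) (mul_mem h1.2 h2.2) hc
  rw [show x * y * c * (x * y)⁻¹ = x * (y * c * y⁻¹) * x⁻¹ by group, h.conj_c' c1 hS hBS h2.1 h2.2 h4,
    ← conj_mul, h.conj_c' c1 hS hBS h1.1 h1.2 h3, h.bm.norm_z h.g1 h.g2 h1.2] at this
  exact h.g1.ne (by simpa using this)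

theorem weak {y : G} (hy : MulAut.conj y • B ≤ S ⊓ normalizer (B : Set G)) :
    y ∈ normalizer (B : Set G) := by
  have c2 : Nat.card (zpowers z) = 2 := by
    rw [Nat.card_zpowers]; exact orderOf_eq_prime ((pow_two z).trans h.zZ.2.2) h.g1.ne
  have c3 := card_lt_of_lt (lt_of_le_of_ne (zpowers_le.2 h.g1.mem) fun e =>
    (eq_or h.zZ.2.2 (e ▸ h.cE)).elim c1 h.c_ne)
  have key : ∀ {γ δ}, Bm B γ δ → MulAut.conj y • Zv γ ≤ B := fun {γ δ} b => by
    have hA := (conj_smul_mono y b.Z_le).trans hy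
    have hA' := elemAb_conj_smul (oz_elemAb (pCoreOf 2 γ)) y
    have c4 := card_mul_relIndex b.p1.oz_le_Z
    rw [b.p1.iz, ← card_conj_smul (oz (pCoreOf 2 γ)) y] at c4
    change _ = Nat.card (MulAut.conj y • Zv γ : Subgroup G) at c4
    change IsElementaryAbelian 2 (MulAut.conj y • Zv γ) at hA'
    generalize MulAut.conj y • Zv γ = A at hA hA' c4
    intro t ht
    by_contra ht'
    have c5 : B.relIndex A = 2 := relIndex_eq_two_iff.2 ⟨t, ht, fun a ha => by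
      by_cases e : a ∈ B
      exacts [Or.inr ⟨e, fun d => ht' ((Subgroup.mul_mem_cancel_left _ e).1 d)⟩,
        Or.inl ⟨h.mul_mem_B c1 hS hBS (hA ha) (hA ht) e ht', e⟩]⟩
    have c6 := card_inf_mul_relIndex B A
    have c7 : B ⊓ A ≤ zpowers z := fun a ha => by
      have e : t * a * t⁻¹ = a := by
        rw [le_centralizer_of_comm hA'.1 ha.2 t ht, mul_inv_cancel_right]
      have d := h.conj_c' c1 hS hBS (hA ht).1 (hA ht).2 ht'
      rcases h.memE (h.fix_mem (hA ht).2 ht' ha.1 ((pow_two a).symm.trans (hA'.2 a ha.2)) e) with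
        rfl | rfl | rfl | rfl
      · exact one_mem _
      · exact absurd (by simpa using e.symm.trans d) h.g1.ne
      · exact mem_zpowers _
      · rw [← conj_mul, d, h.bm.norm_z h.g1 h.g2 (hA ht).2] at e
        exact absurd (by simpa using e) h.g1.ne
    have := card_le_of_le c7
    rw [c5] at c6
    omega
  obtain ⟨v, hv, hv'⟩ := h.bm.symm.exists_u
  refine mem_normalizer_of_conj_smul_le ?_
  nth_rewrite 1 [← sup_zpowers_eq_of_relIndex_prime Nat.prime_two h.bm.p1.Q_le h.bm.p1.i2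
    (h.bm.symm.Z_le hv) hv']
  rw [smul_sup, h.bm.Q_eq]
  exact sup_le (key h.bm) ((conj_smul_mono y (zpowers_le.2 hv)).trans (key h.bm.symm))

theorem le_norm : S ≤ normalizer (B : Set G) := by
  haveI := hS.isNilpotent
  by_contra hc
  refine ((snIn_of_isNilpotent (inf_le_left : S ⊓ normalizer (B : Set G) ≤ S)).lt_normalizer
    fun e => hc (inf_eq_left.1 e)).not_ge (le_inf inf_le_right fun y hy => h.weak c1 hS hBS ?_)
  rw [← mem_normalizer_iff_conj_smul.1 hy.1]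
  exact conj_smul_mono y (le_inf hBS le_normalizer)

theorem notMem_comm : c ∉ ⁅S, S⁆ := by
  have hN := h.le_norm c1 hS hBS
  have cB : ∀ {a b}, a ∈ B → b ∈ B → ⁅a, b⁆ ∈ zpowers z := fun ha hb => by
    rcases h.bm.commB h.g1 h.g2 ha hb with e | e <;> rw [e]
    exacts [one_mem _, mem_zpowers _]
  have hc : c ∉ zpowers z := fun e => (eq_or h.zZ.2.2 e).elim c1 h.c_ne
  by_cases hSB : S ≤ B
  · exact fun e => hc (commutator_le.2 (fun a ha b hb => cB (hSB ha) (hSB hb)) e)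
  obtain ⟨t, ht, ht'⟩ := SetLike.not_le_iff_exists.1 hSB
  obtain ⟨u, hu, hu'⟩ := h.bm.exists_u
  rw [h.bm.symm.Q_eq] at hu'
  have w1 := h.swap (hN ht) ht' hu hu'
  have w2 := h.swap' (hN ht) ht' hu hu'
  have ui := inv_eq_of_mul_eq_one_right hu.2.2
  obtain ⟨w, hw⟩ : ∃ w, w = t * u * t⁻¹ := ⟨_, rfl⟩
  rw [← hw] at w1 w2
  have hwB := h.bm.symm.Z_le w2
  have huB := h.bm.Z_le hu
  have m2 : u * w * (u * w) = z := by
    rw [← (h.g1.all u hu w hwB).resolve_left (h.bm.comm_ne hu hu' hwB w1), commutatorElement_def,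
      ui, inv_eq_of_mul_eq_one_right w2.2.2, mul_assoc _ u w]
  have hz : zpowers z ≤ zpowers (u * w) := zpowers_le.2 (m2 ▸ mul_mem (mem_zpowers _) (mem_zpowers _))
  have hBB : ⁅B, B⁆ ≤ zpowers (u * w) := commutator_le.2 fun a ha b hb => hz (cB ha hb)
  have hn : B ≤ normalizer (zpowers (u * w) : Set G) := le_normalizer_iff_commutator_le_left.2
    ((commutator_mono (zpowers_le.2 (mul_mem huB hwB)) le_rfl).trans hBB)
  obtain ⟨C, hC, -⟩ := exists_commKer hBB hn (hN ht)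
  have hBC : B ≤ C := by
    rw [← sup_zpowers_eq_of_relIndex_prime Nat.prime_two h.bm.Z_le h.bm.i2 hwB w1]
    refine sup_le ((h.bm.p1.sup_E hu fun c => hu' (h.bm.p2.oz_le_Z c)).ge.trans (sup_le (fun e he => (hC e).2 ⟨he.1, hz ?_⟩)
      (zpowers_le.2 ((hC u).2 ⟨huB, ?_⟩)))) (zpowers_le.2 ((hC w).2 ⟨hwB, ?_⟩))
    · have d1 := h.conj_c' c1 hS hBS ht (hN ht) ht'
      have d2 := h.bm.norm_z h.g1 h.g2 (hN ht)
      rw [commutatorElement_def, inv_eq_of_mul_eq_one_right he.2.2, mul_assoc e, mul_assoc e]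
      rcases h.memE he with rfl | rfl | rfl | rfl
      · simp
      · rw [d1, ← mul_assoc, h.cE.2.2, one_mul]; exact mem_zpowers _
      · rw [d2, h.zZ.2.2]; exact one_mem _
      · rw [← conj_mul, d1, d2, ← mul_assoc, he.2.2, one_mul]; exact mem_zpowers _
    · rw [commutatorElement_def, ui, mul_assoc u, mul_assoc u, ← hw]; exact mem_zpowers _
    · have := mul_mem (inv_mem (mem_zpowers (u * w))) (hz (cB huB
        (h.mul_mem_B c1 hS hBS ⟨ht, hN ht⟩ ⟨ht, hN ht⟩ ht' ht')))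
      refine (congrArg (· ∈ zpowers (u * w)) ?_).mp this
      calc _ = w⁻¹ * t * w⁻¹ * t⁻¹ := by rw [commutatorElement_def, hw]; group
        _ = _ := by rw [commutatorElement_def, inv_eq_of_mul_eq_one_right w2.2.2]
  have key : ∀ a ∈ B, ∀ b ∈ S, ⁅a, b⁆ ∈ zpowers (u * w) := fun a ha b hb => by
    by_cases e : b ∈ B
    · exact hz (cB ha e)
    have d := h.mul_mem_B c1 hS hBS ⟨hb, hN hb⟩ (mem_inf.2 ⟨inv_mem ht, hN (inv_mem ht)⟩) e
      fun d => ht' (inv_mem_iff.1 d)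
    have := mul_mem (hz (cB ha d)) (conj_mem_of_le_normalizer hn d ((hC a).1 (hBC ha)).2)
    refine (congrArg (· ∈ zpowers (u * w)) ?_).mp this
    simp only [commutatorElement_def]
    group
  intro e
  have : c ∈ zpowers (u * w) := commutator_le.2 (fun a ha b hb => by
    by_cases e1 : a ∈ B
    · exact key a e1 b hb
    by_cases e2 : b ∈ B
    · exact commutatorElement_inv b a ▸ inv_mem (key b e2 a ha)
    have := key _ (h.mul_mem_B c1 hS hBS ⟨ha, hN ha⟩ (mem_inf.2 ⟨inv_mem hb, hN (inv_mem hb)⟩) e1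
      fun d => e2 (inv_mem_iff.1 d)) b hb
    refine (congrArg (· ∈ zpowers (u * w)) ?_).mp this
    simp only [commutatorElement_def]
    group) e
  rcases P4.Max2.mem_sq_or this with d | d <;> rw [m2] at d
  · exact hc d
  · have d1 : u * w * c * (u * w * c) = 1 := by
      rcases eq_or h.zZ.2.2 d with d | d <;> rw [d]
      exacts [one_mul 1, h.zZ.2.2]
    rw [mul_assoc (u * w), ← mul_assoc c, ← h.cE.2.1 _ (mul_mem huB hwB), mul_assoc _ c, h.cE.2.2,
      mul_one, m2] at d1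
    exact h.g1.ne d1

end Cfg

end Cfsg.Agent.H2.AM
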