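import Cfsg.Agent.H2.Primitive
import Cfsg.Agent.H1.Semidirect
import Cfsg.Agent.H1.PAction

/-! Baer's trick and Thompson's strengthening of the `P × Q` lemma. -/

set_option autoImplicit false

namespace Cfsg.Agent.H2

open Subgroup Cfsg Cfsg.Agent
open scoped commutatorElement

/-- the hypotheses of Baer's construction -/
structure BaerHyp (G : Type*) [Group G] (m : ℕ) : Prop where
  cen : ∀ x y z : G, Commute z ⁅x, y⁆
  half : ∀ x y : G, ⁅x, y⁆ ^ m * ⁅x, y⁆ ^ m = ⁅x, y⁆

/-- the abelian group on the underlying set of a group of class two -/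
def Baer (G : Type*) [Group G] {m : ℕ} (_h : BaerHyp G m) : Type _ := G

namespace BaerHyp

variable {G : Type*} [Group G] {m : ℕ} (h : BaerHyp G m)
include h

theorem mul_left (x y z : G) : ⁅x * y, z⁆ = ⁅y, z⁆ * ⁅x, z⁆ :=
  H1.commutatorElement_mul_left_of_central (h.cen _ _ _)

theorem mul_right (x y z : G) : ⁅z, x * y⁆ = ⁅z, x⁆ * ⁅z, y⁆ := by
  rw [← commutatorElement_inv, h.mul_left, mul_inv_rev, commutatorElement_inv,
    commutatorElement_inv]

theorem cen_left (x y z : G) : ⁅⁅x, y⁆ ^ m, z⁆ = 1 :=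
  commutatorElement_eq_one_iff_commute.2 ((h.cen x y z).symm.pow_left m)

theorem cen_right (x y z : G) : ⁅z, ⁅x, y⁆ ^ m⁆ = 1 :=
  commutatorElement_eq_one_iff_commute.2 ((h.cen x y z).pow_right m)

theorem comm (x y : G) : x * y * ⁅y, x⁆ ^ m = y * x * ⁅x, y⁆ ^ m := by
  have h1 : x * y = y * x * ⁅x, y⁆ := by
    rw [(h.cen x y (y * x)).eq, commutatorElement_def]; group
  rw [h1, ← commutatorElement_inv x y, inv_pow]
  nth_rewrite 1 [← h.half x y]
  group

theorem assoc (x y z : G) : x * y * ⁅y, x⁆ ^ m * z * ⁅z, x * y * ⁅y, x⁆ ^ m⁆ ^ m =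
    x * (y * z * ⁅z, y⁆ ^ m) * ⁅y * z * ⁅z, y⁆ ^ m, x⁆ ^ m := by
  rw [h.mul_right, h.mul_right, h.cen_right, h.mul_left, h.mul_left, h.cen_left, mul_one, one_mul,
    (h.cen _ _ _).mul_pow, (h.cen _ _ _).mul_pow, mul_assoc (x * y),
    ← ((h.cen y x z).pow_right m).eq, ((h.cen z y ⁅z, x⁆).pow_pow m m).eq]
  simp only [mul_assoc]
  congr 3
  rw [((h.cen y x (⁅z, y⁆ ^ m * ⁅z, x⁆ ^ m)).pow_right m).eq.symm, mul_assoc]

end BaerHyp

instance baerCommGroup {G : Type*} [Group G] {m : ℕ} (h : BaerHyp G m) : CommGroup (Baer G h) where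
  mul := fun x y : G => x * y * ⁅y, x⁆ ^ m
  one := (1 : G)
  inv := (Inv.inv : G → G)
  mul_assoc := h.assoc
  one_mul := fun x : G => show (1 : G) * x * ⁅x, (1 : G)⁆ ^ m = x by simp
  mul_one := fun x : G => show x * (1 : G) * ⁅(1 : G), x⁆ ^ m = x by simp
  inv_mul_cancel := fun x : G => show x⁻¹ * x * ⁅x, x⁻¹⁆ ^ m = (1 : G) by
    simp [commutatorElement_def]
  mul_comm := h.comm

instance baerFinite {G : Type*} [Group G] [Finite G] {m : ℕ} (h : BaerHyp G m) :
    Finite (Baer G h) := inferInstanceAs (Finite G)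

/-- automorphisms of `G` are automorphisms of the Baer group -/
def baerAut {G : Type*} [Group G] {m : ℕ} (h : BaerHyp G m) : MulAut G →* MulAut (Baer G h) where
  toFun α :=
    { toEquiv := α.toEquiv
      map_mul' := fun x y : G => show α (x * y * ⁅y, x⁆ ^ m) = α x * α y * ⁅α y, α x⁆ ^ m by
        rw [map_mul, map_mul, map_pow, map_commutatorElement] }
  map_one' := rfl
  map_mul' _ _ := rfl

variable {X : Type*} [Group X] [Finite X]

theorem le_centralizer_of_comm_of_centralizer_le {p : ℕ} [Fact p.Prime] {P Q G : Subgroup X}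
    (hP : IsPGroup p P) (hQ : (Nat.card Q).Coprime p) (hPQ : P ≤ normalizer (Q : Set X))
    (hG : IsPGroup p G) (hGc : IsMulCommutative G) (hPG : P ≤ normalizer (G : Set X))
    (hQG : Q ≤ normalizer (G : Set X))
    (hC : G ⊓ centralizer (P : Set X) ≤ centralizer (Q : Set X)) :
    Q ≤ centralizer (G : Set X) := by
  by_contra hne
  have h0 : ⁅G, Q⁆ ≠ ⊥ := fun e => hne (H1.commutator_eq_bot_iff_le_centralizer'.1 e)
  have hW := H1.commutator_le_of_le_normalizer hQG
  obtain ⟨k, hk⟩ := IsPGroup.iff_card.1 (hG.to_le hW)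
  obtain ⟨R, k1, k2, -⟩ := inf_centralizer_ne_bot_of_isPGroup hP
    (H1.le_normalizer_commutator hPG hPQ) (by
      rw [hk]
      refine dvd_pow_self p fun e => h0 ?_
      rwa [e, pow_zero, card_eq_one] at hk)
  refine k2 (eq_bot_iff.2 ?_)
  rw [← H1.centralizer_inf_commutator_eq_bot hGc hQG (H1.coprime_card_of_isPGroup hG hQ)]
  exact le_inf (k1.trans ((inf_le_inf_right _ hW).trans hC)) (k1.trans inf_le_left)

theorem thompson_pq_lemma {p : ℕ} [hp : Fact p.Prime] (hp2 : p ≠ 2) {P Q G : Subgroup X}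
    (hP : IsPGroup p P) (hQ : (Nat.card Q).Coprime p) (hPQ : P ≤ normalizer (Q : Set X))
    (hG : IsPGroup p G) (hPG : P ≤ normalizer (G : Set X)) (hQG : Q ≤ normalizer (G : Set X))
    (hC : G ⊓ centralizer (P : Set X) ≤ centralizer (Q : Set X)) :
    Q ≤ centralizer (G : Set X) := by
  by_contra hne
  obtain ⟨R, h1, h2, h3, h4⟩ := H1.exists_minimal_nontrivial (B := P ⊔ Q) (A := Q) (sup_le hPG hQG)
    fun e => hne (H1.commutator_eq_bot_iff_le_centralizer'.1 e)
  have hR := hG.to_le h1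
  have hn := H1.sup_le_normalizer_of_le hPQ
  have c2 := H1.minimal_class_two hR h2 le_sup_right hn hQ h3 h4
  have c3 := H1.minimal_commutator_pow hR h2 le_sup_right hn hQ h3 h4
  obtain ⟨m, hm⟩ := hp.out.odd_of_ne_two hp2
  have hB : BaerHyp R (m + 1) := ⟨fun x y z => Subtype.ext
    (c2 (commutator_mem_commutator x.2 y.2) z z.2), fun x y => by
      rw [← pow_add, show m + 1 + (m + 1) = p + 1 by omega, pow_succ,
        show ⁅x, y⁆ ^ p = 1 from Subtype.ext (c3 x x.2 y y.2), one_mul]⟩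
  let φ := (baerAut hB).comp (H1.conjAut h2)
  have hcard : Nat.card (Baer R hB) = Nat.card R := rfl
  have key := le_centralizer_of_comm_of_centralizer_le (p := p)
    (P := H1.sdR φ (P.subgroupOf (P ⊔ Q))) (Q := H1.sdR φ (Q.subgroupOf (P ⊔ Q)))
    (G := H1.sdL φ ⊤) (H1.isPGroup_sdR.2 hP.comap_subtype)
    (by rwa [H1.card_sdR, card_subgroupOf_of_le le_sup_right])
    ((map_mono (fun x hx => by
      rw [← subgroupOf_normalizer_eq le_sup_right]
      exact hPQ hx)).trans (le_normalizer_map _))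
    (H1.isPGroup_sdL.2 (by
      obtain ⟨k, hk⟩ := IsPGroup.iff_card.1 hR
      exact IsPGroup.of_card (n := k) (by rw [card_top, hcard, hk])))
    (H1.isMulCommutative_sdL.2 inferInstance) (H1.sdR_le_normalizer_top _)
    (H1.sdR_le_normalizer_top _) (by
      rw [H1.sdL_top_inf_centralizer, le_centralizer_iff, H1.sdR_le_centralizer_iff]
      intro b hb (v : R) hv
      have a1 : (v : X) ∈ centralizer (P : Set X) := fun a ha =>
        mul_inv_eq_iff_eq_mul.1 (congrArg Subtype.val (hv ⟨a, mem_sup_left ha⟩ ha))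
      exact Subtype.ext (mul_inv_eq_iff_eq_mul.2 (hC ⟨h1 v.2, a1⟩ b hb)))
  rw [H1.sdR_le_centralizer_iff] at key
  refine h3 (H1.commutator_eq_bot_iff_le_centralizer'.2 fun b hb v hv => ?_)
  exact (mul_inv_eq_iff_eq_mul.1 (congrArg Subtype.val
    (key ⟨b, mem_sup_right hb⟩ hb (show Baer R hB from ⟨v, hv⟩) (mem_top _)))).symm

end Cfsg.Agent.H2
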