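/-
Extraspecial 2-groups: the rank and the classification up to isomorphism.
-/
import Cfsg.Agent.FT.BG04
import Cfsg.Agent.H3.DQ

set_option autoImplicit false

namespace Cfsg.Agent.H2.ES2

open Subgroup Cfsg Cfsg.Agent Cfsg.Agent.FT Cfsg.Agent.FT.BG04
open scoped commutatorElement

universe u v

variable {G : Type u} [Group G]

/-- Extraspecial or of order 2. -/
structure ES (G : Type u) [Group G] : Prop where
  pg : IsPGroup 2 G
  cz : 𝐨(center G) = 2
  cm : ∀ x y : G, ⁅x, y⁆ ∈ center G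
  sq : ∀ x : G, x ^ 2 ∈ center G

/-- A pair of non-commuting involutions. -/
structure Pr (x y : G) : Prop where
  hx : x ^ 2 = 1
  hy : y ^ 2 = 1
  ne : x * y ≠ y * x

theorem exists_dh {w y : G} (hw : orderOf w = 4) (hy2 : y ^ 2 = 1) (h : y * w * y⁻¹ = w⁻¹) :
    ∃ f : DihedralGroup 4 →* G, (∀ a : ℤ, f (.r a) = w ^ a) ∧ ∀ a : ℤ, f (.sr a) = y * w ^ a := by
  let f : DihedralGroup 4 → G := fun g => match g with
    | .r i => w ^ i.val
    | .sr i => y * w ^ i.val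
  have hr : ∀ a : ℤ, f (.r a) = w ^ a := fun a => H3.pow_val_intCast hw a
  have hs : ∀ a : ℤ, f (.sr a) = y * w ^ a := fun a => congrArg _ (H3.pow_val_intCast hw a)
  have hmul : ∀ g k, f (g * k) = f g * f k := by
    rintro (i | i) (j | j) <;> obtain ⟨a, rfl⟩ := ZMod.intCast_surjective i <;>
      obtain ⟨b, rfl⟩ := ZMod.intCast_surjective j
    · rw [DihedralGroup.r_mul_r, ← Int.cast_add, hr, hr, hr, zpow_add]
    · rw [DihedralGroup.r_mul_sr, ← Int.cast_sub, hs, hr, hs, ← mul_assoc,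
        H3.zpow_mul_of_conj_inv h]
      group
    · rw [DihedralGroup.sr_mul_r, ← Int.cast_add, hs, hs, hr, zpow_add, mul_assoc]
    · rw [DihedralGroup.sr_mul_sr, ← Int.cast_sub, hr, hs, hs, mul_assoc, ← mul_assoc (w ^ a),
        H3.zpow_mul_of_conj_inv h, ← mul_assoc, ← mul_assoc, ← sq, hy2]
      group
  exact ⟨MonoidHom.mk' f hmul, hr, hs⟩

namespace ES

theorem uniq (h : ES G) {a b : G} (ha : a ∈ center G) (hb : b ∈ center G) (a1 : a ≠ 1)
    (b1 : b ≠ 1) : a = b := by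
  obtain ⟨z, -, hz⟩ := (Nat.card_eq_two_iff' (1 : center G)).1 h.cz
  have h1 := hz ⟨a, ha⟩ fun e => a1 (congrArg Subtype.val e)
  have h2 := hz ⟨b, hb⟩ fun e => b1 (congrArg Subtype.val e)
  exact congrArg Subtype.val (h1.trans h2.symm)

theorem mul_self (h : ES G) {a : G} (ha : a ∈ center G) : a * a = 1 := by
  by_contra h1
  have h2 : a ≠ 1 := fun e => h1 (by rw [e, one_mul])
  exact h2 (by simpa using h.uniq (mul_mem ha ha) ha h1 h2)

theorem mul_mem_cent (h : ES G) {x a b : G} (ha : a ∉ 𝐂[x]) (hb : b ∉ 𝐂[x]) : a * b ∈ 𝐂[x] := by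
  rw [mem_centralizer_singleton_iff, ← commutatorElement_eq_one_iff_mul_comm] at ha hb ⊢
  have e : ⁅a * b, x⁆ = a * ⁅b, x⁆ * a⁻¹ * ⁅a, x⁆ := by
    simp only [commutatorElement_def]; group
  rw [e, Subgroup.mem_center_iff.1 (h.cm b x) a, mul_inv_cancel_right,
    h.uniq (h.cm b x) (h.cm a x) hb ha, h.mul_self (h.cm a x)]

theorem relIndex_eq (h : ES G) {x a : G} {H : Subgroup G} (ha : a ∈ H) (hx : a ∉ 𝐂[x]) :
    (𝐂[x]).relIndex H = 2 := by
  refine index_eq_two_iff.2 ⟨⟨a, ha⟩, fun b => ?_⟩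
  simp only [mem_subgroupOf, coe_mul]
  by_cases hb : (b : G) ∈ 𝐂[x]
  · exact Or.inr ⟨hb, fun h1 => hx ((Subgroup.mul_mem_cancel_left _ hb).1 h1)⟩
  · exact Or.inl ⟨h.mul_mem_cent hb hx, hb⟩

theorem card_le [Finite G] (h : ES G) (x : G) (H : Subgroup G) : 𝐨(H) ≤ 2 * 𝐨(𝐂[x] ⊓ H) := by
  have := H3.card_inf_mul_relIndex 𝐂[x] H
  by_cases hH : H ≤ 𝐂[x]
  · rw [inf_eq_right.2 hH]; omega
  · obtain ⟨a, ha, hx⟩ := SetLike.not_le_iff_exists.1 hH
    rw [h.relIndex_eq ha hx] at this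
    omega

theorem exists_pr (h : ES G) {x : G} (hx : x ^ 2 = 1) (hc : x ∉ center G) : ∃ y, Pr x y := by
  have : ∃ y, x * y ≠ y * x := by
    by_contra hn
    push Not at hn
    exact hc (Subgroup.mem_center_iff.2 fun g => (hn g).symm)
  obtain ⟨y, hy⟩ := this
  by_cases h2 : y ^ 2 = 1
  · exact ⟨y, hx, h2, hy⟩
  · refine ⟨x * y, hx, ?_, fun e => hy (mul_left_cancel (a := x) (by rw [e, mul_assoc]))⟩
    have e : (x * y) ^ 2 = ⁅x, y⁆ * (y * x ^ 2 * y⁻¹) * y ^ 2 := by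
      simp only [commutatorElement_def, pow_two]; group
    rw [e, hx, mul_one, mul_inv_cancel, mul_one,
      h.uniq (h.cm x y) (h.sq y) (mt commutatorElement_eq_one_iff_mul_comm.1 hy) h2,
      h.mul_self (h.sq y)]

variable {x y : G}

theorem y_notMem (hp : Pr x y) : y ∉ 𝐂[x] := fun e =>
  hp.ne (mem_centralizer_singleton_iff.1 e).symm

theorem x_notMem (hp : Pr x y) : x ∉ 𝐂[y] := fun e => hp.ne (mem_centralizer_singleton_iff.1 e)

theorem x_mem (x : G) : x ∈ 𝐂[x] := mem_centralizer_singleton_iff.2 rfl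

theorem eq_top (h : ES G) (hp : Pr x y) {K : Subgroup G} (h1 : 𝐂[y] ⊓ 𝐂[x] ≤ K) (hx : x ∈ K)
    (hy : y ∈ K) : K = ⊤ := by
  have a : 𝐂[x] ≤ K := fun g hg => by
    by_cases hg' : g ∈ 𝐂[y]
    · exact h1 (mem_inf.2 ⟨hg', hg⟩)
    · exact (Subgroup.mul_mem_cancel_right _ hx).1
        (h1 (mem_inf.2 ⟨h.mul_mem_cent hg' (x_notMem hp), mul_mem hg (x_mem x)⟩))
  refine eq_top_iff.2 fun g _ => ?_
  by_cases hg : g ∈ 𝐂[x]
  · exact a hg
  · exact (Subgroup.mul_mem_cancel_right _ hy).1 (a (h.mul_mem_cent hg (y_notMem hp)))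

theorem card_eq (h : ES G) (hp : Pr x y) : Nat.card G = 4 * 𝐨(𝐂[y] ⊓ 𝐂[x]) := by
  have h1 := H3.card_inf_mul_relIndex 𝐂[y] 𝐂[x]
  have h2 := H3.card_inf_mul_relIndex 𝐂[x] ⊤
  rw [h.relIndex_eq (x_mem x) (x_notMem hp)] at h1
  rw [h.relIndex_eq (mem_top y) (y_notMem hp), inf_top_eq, card_top] at h2
  omega

theorem mem_center (h : ES G) (hp : Pr x y) (c : ↥(𝐂[y] ⊓ 𝐂[x])) :
    c ∈ center ↥(𝐂[y] ⊓ 𝐂[x]) ↔ (c : G) ∈ center G := by
  refine ⟨fun hc => ?_, fun hc => Subgroup.mem_center_iff.2 fun g =>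
    Subtype.ext (Subgroup.mem_center_iff.1 hc g)⟩
  have : 𝐂[(c : G)] = ⊤ := by
    refine h.eq_top hp (fun g hg => mem_centralizer_singleton_iff.2 ?_) ?_ ?_
    · exact congrArg Subtype.val (Subgroup.mem_center_iff.1 hc ⟨g, hg⟩)
    · exact mem_centralizer_singleton_iff.2
        (mem_centralizer_singleton_iff.1 (mem_inf.1 c.2).2).symm
    · exact mem_centralizer_singleton_iff.2
        (mem_centralizer_singleton_iff.1 (mem_inf.1 c.2).1).symm
  exact Subgroup.mem_center_iff.2 fun g =>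
    mem_centralizer_singleton_iff.1 (this ▸ mem_top g : g ∈ 𝐂[(c : G)])

theorem center_le (x y : G) : center G ≤ 𝐂[y] ⊓ 𝐂[x] :=
  le_inf (center_le_centralizer _) (center_le_centralizer _)

theorem sub (h : ES G) (hp : Pr x y) : ES ↥(𝐂[y] ⊓ 𝐂[x]) := by
  refine ⟨h.pg.to_subgroup _, ?_, fun a b => (h.mem_center hp _).2 (h.cm a b),
    fun a => (h.mem_center hp _).2 (h.sq a)⟩
  have : center ↥(𝐂[y] ⊓ 𝐂[x]) = (center G).subgroupOf _ := by
    ext c; rw [h.mem_center hp, mem_subgroupOf]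
  rw [this, Nat.card_congr (subgroupOfEquivOfLe (center_le x y)).toEquiv, h.cz]

theorem rank_eq [Finite G] (h : ES G) (hp : Pr x y) :
    pRank 2 (⊤ : Subgroup G) = pRank 2 (⊤ : Subgroup ↥(𝐂[y] ⊓ 𝐂[x])) + 1 := by
  have h2 := Nat.prime_two
  rw [← pRank_map (𝐂[y] ⊓ 𝐂[x]).subtype_injective h2, ← MonoidHom.range_eq_map, range_subtype]
  apply le_antisymm
  · refine (pRank_le_iff h2).2 fun A _ hA => ?_
    have hA1 : IsElementaryAbelian 2 (𝐂[x] ⊓ A) := elemAb_of_le inf_le_right hA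
    have hB := H3.isElementaryAbelian_sup_zpowers hA1 (y := x) (mem_centralizer_iff.2
      fun a ha => mem_centralizer_singleton_iff.1 (mem_inf.1 ha).1) hp.hx
    have h3 : 𝐨(A) ≤ 𝐨(𝐂[x] ⊓ A ⊔ zpowers x) := by
      by_cases hxA : x ∈ A
      · refine card_le_of_le (le_trans (le_inf (fun a ha => ?_) le_rfl) le_sup_left)
        exact mem_centralizer_singleton_iff.2 (H3.mul_comm_of_mem hA.1 ha hxA)
      · refine (h.card_le x A).trans (BG04.mul_card_le_of_lt h2 (h.pg.to_subgroup _)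
          (lt_of_le_of_ne le_sup_left fun e => hxA ?_))
        have : x ∈ 𝐂[x] ⊓ A := by rw [e]; exact mem_sup_right (mem_zpowers x)
        exact (mem_inf.1 this).2
    have h4 := h.card_le y (𝐂[x] ⊓ A ⊔ zpowers x)
    have h5 := (pRank_le_iff h2).1 (le_refl (pRank 2 (𝐂[y] ⊓ 𝐂[x])))
      (𝐂[y] ⊓ (𝐂[x] ⊓ A ⊔ zpowers x))
      (inf_le_inf_left _ (sup_le inf_le_left (zpowers_le.2 (x_mem x))))
      (elemAb_of_le inf_le_right hB)
    rw [pow_succ]
    omega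
  · obtain ⟨A, hA, he⟩ := exists_isElem_pRank h2 (𝐂[y] ⊓ 𝐂[x])
    have hx1 : x ≠ 1 := fun e => hp.ne (by rw [e, one_mul, mul_one])
    have hox : orderOf x = 2 := orderOf_eq_prime hp.hx hx1
    refine le_pRank h2 le_top (he.sup (B := zpowers x) ((isElem_one_iff h2).2 (by
      rw [Nat.card_zpowers, hox])) (zpowers_le.2 (mem_centralizer_iff.2 fun a ha =>
        mem_centralizer_singleton_iff.1 (mem_inf.1 (hA ha)).2))
      (H3.inf_zpowers_eq_bot h2 (fun e => x_notMem hp (mem_inf.1 (hA e)).1) hp.hx))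

theorem one_le_rank [Finite G] (h : ES G) : 1 ≤ pRank 2 (⊤ : Subgroup G) :=
  le_pRank Nat.prime_two le_top ((isElem_one_iff Nat.prime_two).2 h.cz)

theorem base [Finite G] (h : ES G) (hc : ∀ x : G, x ^ 2 = 1 → x ∈ center G) :
    pRank 2 (⊤ : Subgroup G) = 1 ∧ (Nat.card G = 2 ∨
      (Nat.card G = 8 ∧ Nonempty (G ≃* QuaternionGroup 2))) := by
  have hr : pRank 2 (⊤ : Subgroup G) ≤ 1 := (pRank_le_iff Nat.prime_two).2 fun A _ hA => by
    rw [pow_one, ← h.cz]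
    exact card_le_of_le fun a ha => hc a (hA.2 a ha)
  refine ⟨le_antisymm hr h.one_le_rank, ?_⟩
  rcases H3.abelian_cyclic_cases h.pg (fun A hA => H3.isCyclic_of_isElementaryAbelian_of_card_le hA
    (by simpa using (pRank_le_iff Nat.prime_two).1 hr A le_top hA)) with
    hcy | ⟨-, n, x, y, hn, hx, hi, hy, hy2, hyx⟩
  · left
    have : center G = ⊤ := eq_top_iff.2 fun g _ => Subgroup.mem_center_iff.2 fun k =>
      (hcy.isMulCommutative.is_comm.comm k g)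
    rw [← card_top, ← this, h.cz]
  · right
    have h4 : x ^ 4 = 1 := by
      rw [← h.mul_self (h.sq x), ← pow_add]
    have hn2 : n = 2 := by
      have := orderOf_dvd_of_pow_eq_one h4
      rw [hx, show 4 = 2 ^ 2 from rfl, Nat.pow_dvd_pow_iff_le_right one_lt_two] at this
      omega
    subst hn2
    refine ⟨?_, H3.nonempty_mulEquiv_quaternion (N := 2) hx hi hy hy2 hyx⟩
    rw [← (zpowers x).index_mul_card, hi, Nat.card_zpowers, hx]; rfl

/-- The surjection `C × D₈ → G` with its kernel. -/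
theorem exists_hom [Finite G] (h : ES G) (hp : Pr x y) {C : Type v} [Group C] [Finite C]
    (φ : C ≃* ↥(𝐂[y] ⊓ 𝐂[x])) {z : C} (hz : z ∈ center C) (hz1 : z ≠ 1) :
    ∃ F : C × DihedralGroup 4 →* G, Function.Surjective F ∧
      F.ker = zpowers (z, DihedralGroup.r 2) := by
  have hxi : x⁻¹ = x := inv_eq_of_mul_eq_one_right (by rw [← pow_two, hp.hx])
  have hyi : y⁻¹ = y := inv_eq_of_mul_eq_one_right (by rw [← pow_two, hp.hy])
  have hw2 : (x * y) ^ 2 = ⁅x, y⁆ := by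
    rw [commutatorElement_def, hxi, hyi, pow_two]; group
  have hc1 : ⁅x, y⁆ ≠ 1 := mt commutatorElement_eq_one_iff_mul_comm.1 hp.ne
  have hw : orderOf (x * y) = 4 := by
    refine orderOf_eq_prime_pow (p := 2) (n := 1) (by rw [pow_one, hw2]; exact hc1) ?_
    rw [show 2 ^ (1 + 1) = 2 + 2 from rfl, pow_add, hw2, h.mul_self (h.cm x y)]
  obtain ⟨f, hr, hs⟩ := exists_dh hw hp.hy (by rw [mul_inv_rev, hxi, hyi, mul_assoc, mul_assoc,
    ← pow_two, hp.hy, mul_one])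
  have hcomm : ∀ (c : C) (d : DihedralGroup 4),
      Commute (((𝐂[y] ⊓ 𝐂[x]).subtype.comp φ.toMonoidHom) c) (f d) := by
    intro c d
    have h1 : Commute ((φ c : G)) x := mem_centralizer_singleton_iff.1 (mem_inf.1 (φ c).2).2
    have h2 : Commute ((φ c : G)) y := mem_centralizer_singleton_iff.1 (mem_inf.1 (φ c).2).1
    rcases d with i | i <;> obtain ⟨a, rfl⟩ := ZMod.intCast_surjective i
    · rw [hr]; exact (h1.mul_right h2).zpow_right a
    · rw [hs]; exact h2.mul_right ((h1.mul_right h2).zpow_right a)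
  obtain ⟨F, hF⟩ : ∃ F, F = MonoidHom.noncommCoprod _ _ hcomm := ⟨_, rfl⟩
  have hFa : ∀ c d, F (c, d) = (φ c : G) * f d := fun c d => by rw [hF]; rfl
  have hsurj : Function.Surjective F := by
    rw [← MonoidHom.range_eq_top]
    have hy : y ∈ F.range := ⟨(1, .sr (0 : ℤ)), by rw [hFa, hs]; simp⟩
    refine h.eq_top hp (fun g hg => ⟨(φ.symm ⟨g, hg⟩, 1), by rw [hFa]; simp⟩) ?_ hy
    exact (Subgroup.mul_mem_cancel_right _ hy).1 ⟨(1, .r (1 : ℤ)), by rw [hFa, hr]; simp⟩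
  refine ⟨F, hsurj, ?_⟩
  have hk : 𝐨(F.ker) = 2 := by
    have h1 := F.ker.card_mul_index
    rw [index_ker, MonoidHom.range_eq_top.2 hsurj, card_top, h.card_eq hp, Nat.card_prod,
      DihedralGroup.nat_card, Nat.card_congr φ.toEquiv] at h1
    have h2 : 0 < 𝐨(𝐂[y] ⊓ 𝐂[x]) := Nat.card_pos
    nlinarith
  have hm : (z, DihedralGroup.r 2) ∈ F.ker := by
    have h1 : (φ z : G) ∈ center G := (h.mem_center hp _).1 (Subgroup.mem_center_iff.2 fun g => by
      obtain ⟨g, rfl⟩ := φ.surjective g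
      rw [← map_mul, ← map_mul, Subgroup.mem_center_iff.1 hz g])
    have h2 : (φ z : G) ≠ 1 := fun e => hz1 (φ.injective (Subtype.ext (by simpa using e)))
    have h3 := hr 2
    rw [show ((2 : ℤ) : ZMod 4) = 2 from rfl, zpow_ofNat, hw2] at h3
    rw [MonoidHom.mem_ker, hFa, h3, h.uniq h1 (h.cm x y) h2 hc1, h.mul_self (h.cm x y)]
  refine (eq_of_le_of_card_ge (zpowers_le.2 hm) ?_).symm
  rw [hk]
  exact (one_lt_card_iff_ne_bot _).2 (by
    rw [Ne, zpowers_eq_bot]; exact fun e => hz1 (congrArg Prod.fst e))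

end ES

theorem card_step {n a : ℕ} (h : 4 * a = 2 ^ (2 * n + 1)) (h2 : 2 ≤ a) :
    ∃ m, n = m + 1 ∧ a = 2 ^ (2 * m + 1) := by
  rcases n with _ | m
  · omega
  · refine ⟨m, rfl, ?_⟩
    have : 2 ^ (2 * (m + 1) + 1) = 4 * 2 ^ (2 * m + 1) := by ring
    omega

theorem ES.two_le [Finite G] (h : ES G) : 2 ≤ Nat.card G := h.cz ▸ card_le_card_group _

theorem rank_cases (n : ℕ) : ∀ (G : Type u) [Group G] [Finite G], ES G →
    Nat.card G = 2 ^ (2 * n + 1) →
      pRank 2 (⊤ : Subgroup G) = n ∨ pRank 2 (⊤ : Subgroup G) = n + 1 := by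
  induction n using Nat.strong_induction_on with
  | _ n ih =>
  intro G _ _ h hn
  by_cases hc : ∀ x : G, x ^ 2 = 1 → x ∈ center G
  · obtain ⟨h1, h2 | ⟨h2, -⟩⟩ := h.base hc
    · rw [hn] at h2
      have := Nat.pow_right_injective le_rfl (h2.trans (pow_one 2).symm)
      omega
    · rw [hn] at h2
      have := Nat.pow_right_injective le_rfl (h2.trans (show 8 = 2 ^ 3 from rfl))
      omega
  · push Not at hc
    obtain ⟨x, hx, hc⟩ := hc
    obtain ⟨y, hp⟩ := h.exists_pr hx hc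
    obtain ⟨m, rfl, hm⟩ := card_step ((h.card_eq hp).symm.trans hn) (h.sub hp).two_le
    have := ih m (Nat.lt_succ_self m) _ (h.sub hp) hm
    rw [h.rank_eq hp]
    omega

theorem iso (m : ℕ) : ∀ (G : Type u) (H : Type v) [Group G] [Finite G] [Group H] [Finite H],
    ES G → ES H → Nat.card G = m → Nat.card H = m →
      pRank 2 (⊤ : Subgroup G) = pRank 2 (⊤ : Subgroup H) → Nonempty (G ≃* H) := by
  induction m using Nat.strong_induction_on with
  | _ m ih =>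
  intro G H _ _ _ _ h k hG hH hr
  by_cases hc : ∀ x : G, x ^ 2 = 1 → x ∈ center G <;>
    by_cases hd : ∀ x : H, x ^ 2 = 1 → x ∈ center H
  · obtain ⟨-, h2 | ⟨h2, ⟨e⟩⟩⟩ := h.base hc <;> obtain ⟨-, k2 | ⟨k2, ⟨e'⟩⟩⟩ := k.base hd
    · exact ⟨mulEquivOfPrimeCardEq h2 k2⟩
    · omega
    · omega
    · exact ⟨e.trans e'.symm⟩
  · push Not at hd
    obtain ⟨x, hx, hd⟩ := hd
    obtain ⟨y, hp⟩ := k.exists_pr hx hd
    have := (k.sub hp).one_le_rank
    rw [(h.base hc).1, k.rank_eq hp] at hr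
    omega
  · push Not at hc
    obtain ⟨x, hx, hc⟩ := hc
    obtain ⟨y, hp⟩ := h.exists_pr hx hc
    have := (h.sub hp).one_le_rank
    rw [(k.base hd).1, h.rank_eq hp] at hr
    omega
  · push Not at hc hd
    obtain ⟨x, hx, hc⟩ := hc
    obtain ⟨y, hp⟩ := h.exists_pr hx hc
    obtain ⟨x', hx', hd⟩ := hd
    obtain ⟨y', hp'⟩ := k.exists_pr hx' hd
    have h1 := h.card_eq hp
    have h2 := k.card_eq hp'
    have h3 := (h.sub hp).two_le
    rw [h.rank_eq hp, k.rank_eq hp'] at hr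
    obtain ⟨φ⟩ := ih _ (by omega) _ _ (h.sub hp) (k.sub hp') rfl (by omega) (by omega)
    haveI : Nontrivial (center ↥(𝐂[y] ⊓ 𝐂[x])) := by
      rw [← Finite.one_lt_card_iff_nontrivial, (h.sub hp).cz]; exact one_lt_two
    obtain ⟨z, hz1⟩ := exists_ne (1 : center ↥(𝐂[y] ⊓ 𝐂[x]))
    have hz1' : (z : ↥(𝐂[y] ⊓ 𝐂[x])) ≠ 1 := fun e => hz1 (Subtype.ext e)
    obtain ⟨F, hF, kF⟩ := h.exists_hom hp (MulEquiv.refl _) z.2 hz1'
    obtain ⟨F', hF', kF'⟩ := k.exists_hom hp' φ z.2 hz1'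
    exact ⟨(QuotientGroup.quotientKerEquivOfSurjective F hF).symm.trans
      ((QuotientGroup.quotientMulEquivOfEq (kF.trans kF'.symm)).trans
        (QuotientGroup.quotientKerEquivOfSurjective F' hF'))⟩

theorem es_of [Finite G] (h : IsExtraspecial 2 G) : ES G :=
  ⟨h.1.1, h.2, fun x y => h.1.2.2 ▸ commutator_mem_commutator (mem_top x) (mem_top y),
    fun x => h.1.2.1 ▸ H3.pow_mem_frattini h.1.1 x⟩

theorem pRankLE_iff [Finite G] {p k : ℕ} (hp : p.Prime) :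
    PRankLE p k G ↔ pRank p (⊤ : Subgroup G) ≤ k := by
  rw [pRank_le_iff hp]
  exact ⟨fun h A _ hA => h A hA.1 hA.2, fun h A h1 h2 => h A le_top ⟨h1, h2⟩⟩

end Cfsg.Agent.H2.ES2
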